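/-
HATA, small degrees: the 2-structure of the covers of `A₅`, `A₆`, `A₇`.
-/
import Cfsg.Agent.HatA.SmDefs
import Cfsg.Agent.HatA.Red3
import Cfsg.Agent.Transfer.Control

set_option autoImplicit false
set_option linter.unusedSectionVars false

namespace CL.HatA

open Equiv Equiv.Perm CL.Known Subgroup Cfsg

universe u

variable {Ω : Type*} [Fintype Ω] [DecidableEq Ω] {H : Type*} [Group H] [Finite H] {τ : H →* Perm Ω} {z : H}

theorem smalt_inv (hE : AltExt τ) (h6 : Nat.card τ.ker ∣ 6) (hz : z ∈ τ.ker) (h2 : orderOf z = 2) {x : H}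
    (hx : x ∈ τ.ker) (xx : x * x = 1) : x = 1 ∨ x = z := by
  classical
  let E : Subgroup H :=
    { carrier := {y | y ∈ τ.ker ∧ y ^ 2 = 1}
      mul_mem' := fun {a b} ha hb => ⟨mul_mem ha.1 hb.1, by
        rw [Commute.mul_pow (mem_center_iff.1 (hE.central hb.1) a), ha.2, hb.2, mul_one]⟩
      one_mem' := ⟨one_mem _, one_pow _⟩
      inv_mem' := fun ha => ⟨inv_mem ha.1, by rw [inv_pow, ha.2, inv_one]⟩ }
  have h1 : IsPGroup 2 E := fun y => ⟨1, Subtype.ext y.2.2⟩
  obtain ⟨k, hk⟩ := h1.exists_card_eq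
  have h3 : 2 ^ k ∣ 6 := hk ▸ (card_dvd_of_le (show E ≤ τ.ker from fun _ h => h.1)).trans h6
  have h4 : k ≤ 1 := by
    by_contra h
    exact absurd ((pow_dvd_pow 2 (show 2 ≤ k by omega)).trans h3) (by decide)
  have h5 : zpowers z = E := eq_of_le_of_card_ge (zpowers_le.2 ⟨hz, h2 ▸ pow_orderOf_eq_one z⟩) (by
    rw [Nat.card_zpowers, h2, hk]
    exact (Nat.pow_le_pow_right two_pos h4).trans_eq (pow_one 2))
  have h7 : x ∈ zpowers z := h5.ge ⟨hx, by rwa [pow_two]⟩
  rw [mem_zpowers_iff_mem_range_orderOf, h2] at h7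
  obtain ⟨i, hi, rfl⟩ := Finset.mem_image.1 h7
  have : i = 0 ∨ i = 1 := by have := Finset.mem_range.1 hi; omega
  rcases this with rfl | rfl <;> simp

theorem smalt_six (hE : AltExt τ) (h6 : Nat.card τ.ker ∣ 6) (hz : z ∈ τ.ker) (h2 : orderOf z = 2)
    (hp : z ∈ commutator H) {a b c d : Ω} (h4 : D4 a b c d) {l : H} (el : τ l = swap a b * swap c d) : l ^ 6 = z := by
  obtain ⟨hab, hac, had, hbc, hbd, hcd⟩ := h4
  have k6 : ∀ x ∈ τ.ker, x ^ 6 = 1 := fun x hx => orderOf_dvd_iff_pow_eq_one.1 ((orderOf_dvd_natCard _ hx).trans h6)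
  let O : Subgroup H :=
    { carrier := {y | y ∈ τ.ker ∧ y ^ 3 = 1}
      mul_mem' := fun {a b} ha hb => ⟨mul_mem ha.1 hb.1, by
        rw [Commute.mul_pow (mem_center_iff.1 (hE.central hb.1) a), ha.2, hb.2, mul_one]⟩
      one_mem' := ⟨one_mem _, one_pow _⟩
      inv_mem' := fun ha => ⟨inv_mem ha.1, by rw [inv_pow, ha.2, inv_one]⟩ }
  have : O.Normal := ⟨fun x hx g => by rwa [mem_center_iff.1 (hE.central hx.1) g, mul_inv_cancel_right]⟩
  have hO : O ≤ τ.ker := fun _ h => h.1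
  have hE' := hE.quot O hO
  have hk : ∀ ζ ∈ (QuotientGroup.lift O τ hO).ker, ζ ^ 2 = 1 := fun ζ hζ => by
    obtain ⟨x, rfl⟩ := QuotientGroup.mk_surjective ζ
    rw [← QuotientGroup.mk_pow, QuotientGroup.eq_one_iff]
    exact ⟨pow_mem (show x ∈ τ.ker from hζ) 2, by rw [← pow_mul]; exact k6 x hζ⟩
  obtain ⟨X, w, hw, hX, hXX⟩ := hE'.exists_family_of_not_dvd (fun h => by
    have : Fact (Nat.Prime 3) := ⟨Nat.prime_three⟩
    obtain ⟨x, hx⟩ := exists_prime_orderOf_dvd_card' 3 h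
    have := orderOf_dvd_of_pow_eq_one (show x ^ 2 = 1 from Subtype.ext (hk x x.2))
    rw [hx] at this
    exact absurd this (by decide)) hac
  have hw1 : w ≠ 1 := fun e => by
    have := hE'.core hac X (fun i h1 h2 => (hX i h1 h2).2) (one_mem _) hw (fun i h1 h2 => (hX i h1 h2).1) hXX
      (mem_inf.2 ⟨show (z : H ⧸ O) ∈ _ from hz, commutator_mono le_top le_top
        (map_commutator_eq H (QuotientGroup.mk' O) ▸ mem_map_of_mem (QuotientGroup.mk' O) hp)⟩)
    rw [e, one_pow, one_pow, inv_one, mul_one, zpowers_one_eq_bot, mem_bot, QuotientGroup.eq_one_iff] at this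
    have := orderOf_dvd_of_pow_eq_one this.2
    rw [h2] at this
    exact absurd this (by decide)
  obtain ⟨ζ, hζ, hcζ, e⟩ := hE'.exists_eq_mul (Y := X b * X d) (Y' := (l : H ⧸ O)) (by
    rw [map_mul, (hX b hab hbc.symm).2, (hX d had hcd).2, c3_mul_c3 hac hab hbc.symm had hcd hbd]
    exact el.symm)
  have h7 : l ^ 2 ∈ τ.ker := by
    rw [MonoidHom.mem_ker, map_pow, el, ← c3_mul_c3 hac hab hbc.symm had hcd hbd, c3_mul_c3_sq hac hab hbc.symm had hcd hbd]
  refine (smalt_inv hE h6 hz h2 (x := l ^ 6) (by simpa [← pow_mul] using pow_mem h7 3)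
    (by rw [← pow_add]; simpa [← pow_mul] using k6 _ h7)).resolve_left fun h8 => hw1 ?_
  have h9 : (l : H ⧸ O) ^ 2 = 1 := by
    rw [← QuotientGroup.mk_pow, QuotientGroup.eq_one_iff]
    exact ⟨h7, by rwa [← pow_mul]⟩
  rwa [e, (hcζ _).mul_pow, hk ζ hζ, mul_one, hXX b d hab hbc.symm had hcd hbd] at h9

theorem smalt_type (hE : AltExt τ) (h7 : Fintype.card Ω ≤ 7) {x : H} (hx : x ∉ τ.ker) (xx : x * x ∈ τ.ker) :
    (τ x).cycleType = Multiset.replicate 2 2 := by
  obtain ⟨k, hk, hk'⟩ := inv_type (σ := τ x) (by rw [← map_mul]; exact xx) (mem_alternatingGroup.1 (hE.mem_alt x))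
  have : k = 0 ∨ k = 1 := by omega
  rcases this with rfl | rfl
  · exact absurd (cycleType_eq_zero.1 hk) hx
  · exact hk

theorem smalt_conj (hE : AltExt τ) (h6 : Nat.card τ.ker ∣ 6) (hz : z ∈ τ.ker) (h2 : orderOf z = 2)
    (hp : z ∈ commutator H) (h7 : Fintype.card Ω ≤ 7) {x y : H} (hx : x * x = z) (hy : y * y = z) : IsConj x y := by
  have zz : z * z = 1 := by rw [← pow_two, ← h2, pow_orderOf_eq_one]
  have z1 : z ≠ 1 := fun e => by simp [e] at h2
  have k6 : ∀ x : H, x * x = z → x ^ 6 = z := fun x hx => by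
    rw [show 6 = 2 * 3 from rfl, pow_mul, pow_two, hx, pow_succ, pow_two, zz, one_mul]
  have k1 : ∀ x : H, x * x = z → x ∉ τ.ker := fun x hx h => z1 ((k6 x hx).symm.trans
    (orderOf_dvd_iff_pow_eq_one.1 ((orderOf_dvd_natCard _ h).trans h6)))
  have k2 : ∀ c x y : H, x * x = z → y * y = z → τ c * τ x * (τ c)⁻¹ = τ y → c * x * c⁻¹ = y ∨ c * x * c⁻¹ = y * z :=
    fun c x y hx hy e => by
      obtain ⟨ζ, hζ, hc, e'⟩ := hE.exists_eq_mul (Y := y) (Y' := c * x * c⁻¹) (by rw [map_mul, map_mul, map_inv, e])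
      have : c * x * c⁻¹ * (c * x * c⁻¹) = z := by
        rw [conj_mul, hx, mem_center_iff.1 (hE.central hz) c, mul_inv_cancel_right]
      rw [e', ← pow_two, (hc y).mul_pow, pow_two, hy, mul_eq_left, pow_two] at this
      rcases smalt_inv hE h6 hz h2 hζ this with rfl | rfl
      · exact Or.inl (e'.trans (mul_one y))
      · exact Or.inr e'
  have t1 := smalt_type hE h7 (k1 x hx) (hx ▸ hz)
  have t2 := smalt_type hE h7 (k1 y hy) (hy ▸ hz)
  obtain ⟨π, h1, h3⟩ := exists_even_conj (t1.trans t2.symm) (fun p => by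
    rw [← mul_apply, ← map_mul, hx, show τ z = 1 from hz, one_apply]) (k1 x hx)
  obtain ⟨c, rfl⟩ := hE.exists_lift (mem_alternatingGroup.2 h1)
  refine (k2 c x y hx hy h3).elim (fun e => isConj_iff.2 ⟨c, e⟩) fun e => (isConj_iff.2 ⟨c, e⟩).trans (IsConj.symm ?_)
  obtain ⟨a, b, c, d, h4, e⟩ := eq_dt_of_type t2
  have h5 : D4 a c b d := by unfold D4 at *; grind
  have h8 : D4 a d b c := by unfold D4 at *; grind
  obtain ⟨l, hl⟩ := hE.exists_lift (g := swap a c * swap b d) (by simp [mem_alternatingGroup, h5.1, h5.2.2.2.2.2])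
  refine isConj_iff.2 ⟨l, (k2 l y y hy hy ?_).resolve_left fun e' => z1 ?_⟩
  · rw [mul_inv_eq_iff_eq_mul, hl, e]
    ext p; simp only [coe_mul, Function.comp_apply, swap_apply_def]; unfold D4 at *; grind
  · rw [← smalt_six hE h6 hz h2 hp h8 (l := l * y) (by
      rw [map_mul, hl, e]
      ext p; simp only [coe_mul, Function.comp_apply, swap_apply_def]; unfold D4 at *; grind),
      Commute.mul_pow (mul_inv_eq_iff_eq_mul.1 e'), k6 y hy, smalt_six hE h6 hz h2 hp h5 hl, zz]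

theorem smAlt : SmAlt.{u} := by
  intro H _ _ z n h5 h7 hq ⟨e⟩ hz h2
  let σ : H →* alternatingGroup (Fin n) := e.toMonoidHom.comp (QuotientGroup.mk' _)
  have hk : σ.ker = center H := by rw [CL.Schur.ker_comp_equiv, QuotientGroup.ker_mk']
  have hp : commutator H = ⊤ := hq.1.commutator_eq_top
  have hσ : IsStemExtension σ := ⟨e.surjective.comp (QuotientGroup.mk'_surjective _), hk.le, hp ▸ le_top⟩
  have hE := altExt_of_hom hσ.1 hσ.2.1
  have h6 := card_ker_dvd_six hσ (by simpa using h5)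
  have h6' := (ker_subtype_comp σ).symm ▸ h6
  have hz' : z ∈ ((alternatingGroup (Fin n)).subtype.comp σ).ker := by rwa [ker_subtype_comp, hk]
  have z1 : z ≠ 1 := fun e => by simp [e] at h2
  have hp' : z ∈ commutator H := hp ▸ mem_top z
  refine ⟨fun x xx => ?_, fun x y => smalt_conj hE h6' hz' h2 hp' (by simpa using h7), fun P => ⟨?_, fun hP => z1 ?_⟩⟩
  · refine smalt_inv hE h6' hz' h2 (by_contra fun hx => z1 ?_) xx
    obtain ⟨a, b, c, d, h4, e⟩ := eq_dt_of_type (smalt_type hE (by simpa using h7) hx (xx ▸ one_mem _))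
    rw [← smalt_six hE h6' hz' h2 hp' h4 e, show 6 = 2 * 3 from rfl, pow_mul, pow_two, xx, one_pow]
  · have h1 := (center H).card_mul_index
    have : Nontrivial (Fin n) := Fin.nontrivial_iff_two_le.2 (by omega)
    rw [index_eq_card, Nat.card_congr e.toEquiv, nat_card_alternatingGroup, Nat.card_eq_fintype_card (α := Fin n),
      Fintype.card_fin] at h1
    rw [hk] at h6
    have h3 : 2 ∣ Nat.card (center H) := h2 ▸ orderOf_dvd_natCard _ hz
    have h4 : Nat.card (center H) = 2 ∨ Nat.card (center H) = 6 := by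
      have := Nat.le_of_dvd (by norm_num) h6
      generalize Nat.card (center H) = m at *
      interval_cases m <;> simp_all
    obtain ⟨k, h8⟩ := P.isPGroup'.exists_card_eq
    have h9 := P.not_dvd_index
    have h10 := (P : Subgroup H).card_mul_index
    rw [h8, ← h1] at h10
    have h11 : 8 ∣ 2 ^ k := (Nat.Coprime.pow_left 3 ((Nat.Prime.coprime_iff_not_dvd Nat.prime_two).2 h9)).dvd_of_dvd_mul_right
      (by rw [h10]; rcases h4 with h4 | h4 <;> rw [h4] <;> interval_cases n <;> decide)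
    have h12 : ¬ 2 ^ 5 ∣ 2 ^ k := fun h => absurd (h10 ▸ h.mul_right _ : 2 ^ 5 ∣ _) (by
      rcases h4 with h4 | h4 <;> rw [h4] <;> interval_cases n <;> decide)
    rw [show 8 = 2 ^ 3 from rfl, Nat.pow_dvd_pow_iff_le_right one_lt_two] at h11
    rw [Nat.pow_dvd_pow_iff_le_right one_lt_two] at h12
    rw [h8]
    have : k = 3 ∨ k = 4 := by omega
    rcases this with rfl | rfl <;> simp
  · have h1 : z ∈ (P : Subgroup H) := by
      have : (zpowers z).Normal := ⟨fun x hx g => by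
        rwa [mem_center_iff.1 (zpowers_le.2 hz hx) g, mul_inv_cancel_right]⟩
      exact (IsPGroup.of_card (n := 1) (by rw [Nat.card_zpowers, h2, pow_one])).le_sylow_of_normal P (mem_zpowers z)
    have h3 := CL.Transfer.inf_commutator_inf_center_le_of_hall (P : Subgroup H) P.card_coprime_index ⟨⟨h1, hp'⟩, hz⟩
    rwa [commutator_eq_bot_iff_le_centralizer.2 (le_centralizer _), mem_bot] at h3

end CL.HatA
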