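/-
HATA, small degrees: computations in the Sylow 2-subgroup `S` of `C(z)`.
-/
import Cfsg.Agent.HatA.SmDefs

set_option autoImplicit false
set_option linter.unusedSectionVars false

namespace CL.HatA

open Subgroup CL.Grp

theorem eq_of_sq_zpowers {G : Type*} [Group G] [Finite G] {r x y : G} (hx : x ∈ zpowers r) (hy : y ∈ zpowers r)
    (xx : x * x = 1) (yy : y * y = 1) (x1 : x ≠ 1) (y1 : y ≠ 1) : x = y := by
  classical
  have : Fintype (zpowers r) := Fintype.ofFinite _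
  have h := IsCyclic.card_pow_eq_one_le (α := zpowers r) (n := 2) two_pos
  by_contra hne
  have h3 : ({1, ⟨x, hx⟩, ⟨y, hy⟩} : Finset (zpowers r)) ⊆ Finset.univ.filter fun a => a ^ 2 = 1 := by
    intro a ha
    simp only [Finset.mem_insert, Finset.mem_singleton] at ha
    rcases ha with rfl | rfl | rfl <;> simp [Subtype.ext_iff, pow_two, xx, yy]
  have h4 := Finset.card_le_card h3
  rw [Finset.card_eq_three.2 ⟨1, ⟨x, hx⟩, ⟨y, hy⟩, fun e => x1 (congrArg Subtype.val e).symm,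
    fun e => y1 (congrArg Subtype.val e).symm, fun e => hne (congrArg Subtype.val e), rfl⟩] at h4
  omega

namespace Qd

variable {G : Type*} [Group G] [Finite G] (D : Qd G)

/-- `C(z)`. -/
abbrev C : Subgroup G := centralizer {D.z}
/-- `C(A)`. -/
abbrev K : Subgroup G := centralizer (D.A : Set G)
/-- The order of `w`. -/
def N : ℤ := 2 * D.h
/-- The action of `s` on the quaternion group. -/
def Act (s : G) (m i : ℤ) : Prop := s * D.w * s⁻¹ = D.w ^ m ∧ s * D.j * s⁻¹ = D.w ^ i * D.j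
/-- The involutions of `A C(A)` other than `z`. -/
def U (x : G) : Prop := ∃ q ∈ D.A, ∃ k ∈ D.K, q * q = D.z ∧ k * k = D.z ∧ x = q * k
/-- The involutions of `S` of diagonal type. -/
def Dt (x : G) : Prop := x ∈ D.S ∧ x * x = 1 ∧ ∃ i, Odd i ∧ D.Act x (-1) i

theorem hN : D.N = 4 ∧ (D.h : ℤ) = 2 ∨ D.N = 8 ∧ (D.h : ℤ) = 4 := by
  rcases D.hh with h | h <;> simp [N, h]

variable {D}

theorem mem_C {g : G} : g ∈ D.C ↔ g * D.z = D.z * g := mem_centralizer_singleton_iff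

theorem conj_z {g : G} (hg : g ∈ D.C) : g * D.z * g⁻¹ = D.z := by rw [mem_C.1 hg, mul_inv_cancel_right]

theorem z_inv : D.z⁻¹ = D.z := inv_eq_of_mul_eq_one_right D.zz

theorem SC {s : G} (hs : s ∈ D.S) : s ∈ D.C := D.syl.le hs

theorem wz : D.w ^ (D.h : ℤ) = D.z := by rw [zpow_natCast, D.wh]

theorem zA : D.z ∈ D.A := D.wh ▸ pow_mem D.wA _

theorem zS : D.z ∈ D.S := D.wh ▸ pow_mem D.wS _

theorem zK : D.z ∈ D.K := fun _ hx => mem_C.1 (D.AC hx)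

theorem KC {k : G} (hk : k ∈ D.K) : k ∈ D.C := mem_C.2 (hk _ zA).symm

theorem K_comm {k x : G} (hk : k ∈ D.K) (hx : x ∈ D.A) : Commute x k := hk x hx

theorem K_conj {g k : G} (hg : g ∈ D.C) (hk : k ∈ D.K) : g * k * g⁻¹ ∈ D.K := fun x hx => by
  have h := hk _ (D.norm _ (inv_mem hg) x hx)
  calc x * (g * k * g⁻¹) = g * (g⁻¹ * x * g⁻¹⁻¹ * k) * g⁻¹ := by group
    _ = _ := by rw [h]; group

theorem ord_w : (orderOf D.w : ℤ) = D.N := by
  have : Fact (Nat.Prime 2) := ⟨Nat.prime_two⟩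
  have h1 := D.wh
  have h2 : D.w ^ (D.h * 2) = 1 := by rw [pow_mul, h1, pow_two, D.zz]
  unfold N
  rcases D.hh with h | h <;> rw [h] at h1 h2 ⊢
  · rw [orderOf_eq_prime_pow (p := 2) (n := 1) (by rw [pow_one, h1]; exact D.z1) h2]; rfl
  · rw [orderOf_eq_prime_pow (p := 2) (n := 2) (by rw [show 2 ^ 2 = 4 from rfl, h1]; exact D.z1) h2]; rfl

theorem w_eq {a b : ℤ} : D.w ^ a = D.w ^ b ↔ D.N ∣ b - a := by
  rw [zpow_eq_zpow_iff_modEq, ord_w, Int.modEq_iff_dvd]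

theorem j_zpow (i : ℤ) : D.j * D.w ^ i * D.j⁻¹ = D.w ^ (-i) := by
  rw [← conj_zpow, D.jw, inv_zpow']

theorem j_zpow' (i : ℤ) : D.j * D.w ^ i = D.w ^ (-i) * D.j := by rw [← j_zpow]; group

theorem sq_wj (i : ℤ) : D.w ^ i * D.j * (D.w ^ i * D.j) = D.z := by
  rw [mul_assoc, ← mul_assoc D.j, j_zpow', ← D.jj]; group

theorem not_comm_j {i : ℤ} (h : D.w ^ i * D.w ^ i = D.z) : ¬ Commute D.j (D.w ^ i) := fun c => by
  have h1 := j_zpow (D := D) i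
  rw [c.eq, mul_inv_cancel_right, zpow_neg, eq_inv_iff_mul_eq_one, h] at h1
  exact D.z1 h1

theorem not_comm_wj : ¬ Commute D.j D.w := fun c => by
  have h1 := j_zpow (D := D) 1
  rw [zpow_one, c.eq, mul_inv_cancel_right, ← zpow_one D.w, ← zpow_mul, w_eq] at h1
  rcases D.hN with h | h <;> rw [h.1] at h1 <;> omega

theorem Act.zpow {s : G} {m i : ℤ} (h : D.Act s m i) (p : ℤ) : s * D.w ^ p * s⁻¹ = D.w ^ (m * p) := by
  rw [← conj_zpow, h.1, zpow_mul]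

theorem Act.mul {s t : G} {m i n k : ℤ} (h : D.Act s m i) (h' : D.Act t n k) : D.Act (s * t) (m * n) (m * k + i) := by
  constructor
  · rw [← h.zpow, ← h'.1]; group
  · rw [zpow_add, mul_assoc (D.w ^ _), ← h.2, ← h.zpow]
    calc _ = s * (t * D.j * t⁻¹) * s⁻¹ := by group
      _ = _ := by rw [h'.2]; group

theorem Act.uniq {s : G} {m i n k : ℤ} (h : D.Act s m i) (h' : D.Act s n k) : D.N ∣ n - m ∧ D.N ∣ k - i :=
  ⟨w_eq.1 (h.1.symm.trans h'.1), w_eq.1 (mul_right_cancel (h.2.symm.trans h'.2))⟩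

theorem Act.congr {s : G} {m i n k : ℤ} (h : D.Act s m i) (h1 : D.N ∣ n - m) (h2 : D.N ∣ k - i) : D.Act s n k :=
  ⟨h.1.trans (w_eq.2 h1), h.2.trans (by rw [w_eq.2 h2])⟩

theorem act_K {k : G} (hk : k ∈ D.K) : D.Act k 1 0 :=
  ⟨by rw [← (K_comm hk D.wA).eq]; group, by rw [← (K_comm hk D.jA).eq]; group⟩

theorem act_w (p : ℤ) : D.Act (D.w ^ p) 1 (2 * p) :=
  ⟨by group, by rw [mul_assoc, ← zpow_neg, j_zpow', neg_neg]; group⟩

theorem act_j : D.Act D.j (-1) 0 := ⟨by rw [D.jw]; group, by group⟩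

theorem Act.mem_K {s : G} (hs : s ∈ D.S) (h : D.Act s 1 0) : s ∈ D.K :=
  D.kf s hs (mul_inv_eq_iff_eq_mul.1 (h.1.trans (zpow_one _))) (mul_inv_eq_iff_eq_mul.1 (h.2.trans (by simp)))

theorem conj_Q {s x : G} (hs : s ∈ D.S) (hx : x ∈ D.S) (hA : x ∈ D.A) : s * x * s⁻¹ ∈ D.S ∧ s * x * s⁻¹ ∈ D.A :=
  ⟨mul_mem (mul_mem hs hx) (inv_mem hs), D.norm s (SC hs) x hA⟩

theorem act {s : G} (hs : s ∈ D.S) : ∃ m i : ℤ, (m = 1 ∨ m = -1 ∨ m = 3 ∨ m = -3) ∧ D.Act s m i := by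
  obtain ⟨m, hm⟩ := D.winv s hs
  have h1 : D.N ∣ m * D.h - D.h := by
    rw [← w_eq, wz, zpow_mul, ← hm, conj_zpow, wz, conj_z (SC hs)]
  obtain ⟨i, hi | hi⟩ := D.memQ _ (conj_Q hs D.jS D.jA).1 (conj_Q hs D.jS D.jA).2
  · refine (not_comm_wj (D := D) ?_).elim
    have c : Commute (s * D.j * s⁻¹) (s * D.w * s⁻¹) := hi ▸ hm ▸ Commute.zpow_zpow_self _ _ _
    simpa [mul_assoc] using c.conj s⁻¹
  have hA : D.Act s m i := ⟨hm, hi⟩
  have h8 : m % 8 = 1 ∨ m % 8 = 7 ∨ m % 8 = 3 ∨ m % 8 = 5 := by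
    rcases D.hN with h | h <;> rw [h.1, h.2] at h1 <;> omega
  have hd : ∀ n : ℤ, (8 : ℤ) ∣ n - m → D.Act s n i := fun n hn =>
    hA.congr (by rcases D.hN with h | h <;> rw [h.1] <;> omega) (by simp)
  rcases h8 with h | h | h | h
  · exact ⟨1, i, by simp, hd _ (by omega)⟩
  · exact ⟨-1, i, by simp, hd _ (by omega)⟩
  · exact ⟨3, i, by simp, hd _ (by omega)⟩
  · exact ⟨-3, i, by simp, hd _ (by omega)⟩

theorem Act.inn {s : G} {m i : ℤ} (hs : s ∈ D.S) (h : D.Act s m i) (h1 : D.N ∣ m - 1 ∨ D.N ∣ m + 1) (h2 : Even i) :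
    ∃ q ∈ D.S, q ∈ D.A ∧ ∃ k ∈ D.S, k ∈ D.K ∧ s = q * k := by
  obtain ⟨p, rfl⟩ := h2
  have key : ∀ q ∈ D.S, q ∈ D.A → D.Act (q * s) 1 0 → ∃ q ∈ D.S, q ∈ D.A ∧ ∃ k ∈ D.S, k ∈ D.K ∧ s = q * k :=
    fun q h1 h2 h3 => ⟨q⁻¹, inv_mem h1, inv_mem h2, q * s, mul_mem h1 hs, h3.mem_K (mul_mem h1 hs), by group⟩
  rcases h1 with h1 | h1
  · exact key _ (zpow_mem D.wS (-p)) (zpow_mem D.wA _) (((act_w _).mul h).congr
      (by rw [one_mul, dvd_sub_comm]; exact h1) ⟨0, by ring⟩)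
  · exact key _ (mul_mem D.jS (zpow_mem D.wS (-p))) (mul_mem D.jA (zpow_mem D.wA _))
      (((act_j.mul (act_w _)).mul h).congr (by convert h1 using 1; ring) ⟨0, by ring⟩)

theorem Q_sq {x : G} (hx : x ∈ D.S) (hA : x ∈ D.A) (xx : x * x = 1) : x = 1 ∨ x = D.z := by
  obtain ⟨i, rfl | rfl⟩ := D.memQ x hx hA
  · rw [← zpow_add, ← zpow_zero D.w, w_eq] at xx
    rw [← zpow_zero D.w, ← wz, w_eq, w_eq]
    rcases D.hN with h | h <;> rw [h.1] at xx ⊢ <;> rw [h.2] <;> omega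
  · exact (D.z1 ((sq_wj i).symm.trans xx)).elim

theorem R_sq {x : G} (hx : x ∈ D.S) (hK : x ∈ D.K) (xx : x * x = 1) : x = 1 ∨ x = D.z := by
  obtain ⟨i, hi⟩ := D.memR x hx hK
  obtain ⟨l, hl⟩ := D.memR _ zS zK
  exact or_iff_not_imp_left.2 fun h => eq_of_sq_zpowers (r := D.r) ⟨i, hi.symm⟩ ⟨l, hl.symm⟩ xx D.zz h D.z1

theorem R_comm {x y : G} (hx : x ∈ D.S) (hK : x ∈ D.K) (hy : y ∈ D.S) (hK' : y ∈ D.K) : Commute x y := by
  obtain ⟨i, rfl⟩ := D.memR x hx hK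
  obtain ⟨l, rfl⟩ := D.memR y hy hK'
  exact Commute.zpow_zpow_self _ _ _

theorem eq_or_of_sq {x y : G} (xx : x * x = D.z) (h : x * y = 1 ∨ x * y = D.z) : y = x ∨ y = x * D.z := by
  rcases h with h | h
  · right
    rw [← xx, ← inv_eq_of_mul_eq_one_right h, inv_eq_iff_mul_eq_one, ← D.zz, ← xx]; group
  · exact Or.inl (mul_left_cancel (h.trans xx.symm))

theorem sq_mul {x y : G} (c : Commute x y) (xx : x * x = D.z) (yy : y * y = D.z) : x * y * (x * y) = 1 := by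
  rw [← pow_two, c.mul_pow, pow_two, pow_two, xx, yy, D.zz]

theorem Q_four {x y : G} (hx : x ∈ D.S) (hA : x ∈ D.A) (hy : y ∈ D.S) (hA' : y ∈ D.A) (c : Commute x y)
    (xx : x * x = D.z) (yy : y * y = D.z) : y = x ∨ y = x * D.z :=
  eq_or_of_sq xx (Q_sq (mul_mem hx hy) (mul_mem hA hA') (sq_mul c xx yy))

theorem R_four {x y : G} (hx : x ∈ D.S) (hK : x ∈ D.K) (hy : y ∈ D.S) (hK' : y ∈ D.K)
    (xx : x * x = D.z) (yy : y * y = D.z) : y = x ∨ y = x * D.z :=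
  eq_or_of_sq xx (R_sq (mul_mem hx hy) (mul_mem hK hK') (sq_mul (R_comm hx hK hy hK') xx yy))

theorem z_or {x y : G} (hx : x = 1 ∨ x = D.z) (hy : y = 1 ∨ y = D.z) : x * y = 1 ∨ x * y = D.z := by
  rcases hx with rfl | rfl <;> rcases hy with rfl | rfl <;> simp [D.zz]

/-- An involution acting as an inner automorphism. -/
theorem Act.tr {x : G} {m i : ℤ} (hx : x ∈ D.S) (xx : x * x = 1) (h : D.Act x m i) (h1 : D.N ∣ m - 1 ∨ D.N ∣ m + 1)
    (h2 : Even i) : (x = 1 ∨ x = D.z) ∨ D.U x := by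
  obtain ⟨q, qS, qA, k, kS, kK, rfl⟩ := h.inn hx h1 h2
  have e : q * q * (k * k) = 1 := by rw [← pow_two, ← pow_two, ← (K_comm kK qA).mul_pow, pow_two, xx]
  have hU : q * q = D.z → D.U (q * k) := fun qq =>
    ⟨q, qA, k, kK, qq, by rw [← z_inv, ← qq]; exact (inv_eq_of_mul_eq_one_right e).symm, rfl⟩
  obtain ⟨p, rfl | rfl⟩ := D.memQ q qS qA
  · have h3 : D.w ^ p * D.w ^ p ∈ D.K := by rw [eq_inv_of_mul_eq_one_left e]; exact inv_mem (mul_mem kK kK)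
    have h4 := (((act_w p).mul (act_w p)).uniq (act_K h3)).2
    have h5 : D.w ^ p * D.w ^ p * (D.w ^ p * D.w ^ p) = 1 := by
      rw [← zpow_add, ← zpow_add, ← zpow_zero D.w, w_eq]
      convert h4 using 1; ring
    rcases Q_sq (mul_mem qS qS) (mul_mem qA qA) h5 with h6 | h6
    · exact Or.inl (z_or (Q_sq qS qA h6) (R_sq kS kK (by rwa [h6, one_mul] at e)))
    · exact Or.inr (hU h6)
  · exact Or.inr (hU (sq_wj p))

theorem U.conj {x g : G} (h : D.U x) (hg : g ∈ D.C) : D.U (g * x * g⁻¹) := by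
  obtain ⟨q, qA, k, kK, qq, kk, rfl⟩ := h
  exact ⟨_, D.norm g hg q qA, _, K_conj hg kK, by rw [conj_mul, qq, conj_z hg], by rw [conj_mul, kk, conj_z hg],
    (conj_mul ..).symm⟩

theorem U.sq {x : G} (h : D.U x) : x * x = 1 := by
  obtain ⟨q, qA, k, kK, qq, kk, rfl⟩ := h
  exact sq_mul (K_comm kK qA) qq kk

theorem U.mem_C {x : G} (h : D.U x) : x ∈ D.C := by
  obtain ⟨q, qA, k, kK, -, -, rfl⟩ := h
  exact mul_mem (D.AC qA) (KC kK)

theorem U.mul_z {x : G} (h : D.U x) : D.U (x * D.z) := by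
  obtain ⟨q, qA, k, kK, qq, kk, rfl⟩ := h
  refine ⟨q, qA, _, mul_mem kK zK, qq, ?_, mul_assoc ..⟩
  rw [← pow_two, Commute.mul_pow (Qd.mem_C.1 (KC kK)), pow_two, pow_two, kk, D.zz, mul_one]

theorem sylA : IsSylowIn 2 (D.S ⊓ D.A) D.A :=
  haveI : Fact (Nat.Prime 2) := ⟨Nat.prime_two⟩
  D.syl.inf_of_normalized D.AC fun g hg => mem_normalizer_fintype fun x hx => D.norm g hg x hx

theorem U.inS {x : G} (h : D.U x) (hx : x ∈ D.S) :
    ∃ q ∈ D.S, q ∈ D.A ∧ ∃ k ∈ D.S, k ∈ D.K ∧ q * q = D.z ∧ k * k = D.z ∧ x = q * k := by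
  haveI : Fact (Nat.Prime 2) := ⟨Nat.prime_two⟩
  obtain ⟨q, qA, k, kK, qq, kk, rfl⟩ := h
  have hn : zpowers q ≤ normalizer ((D.S ⊓ D.A : Subgroup G) : Set G) := by
    refine zpowers_le.2 (mem_normalizer_fintype fun y hy => ?_)
    have e : q * y * q⁻¹ = q * k * y * (q * k)⁻¹ := by rw [mul_assoc q k, ← (K_comm kK hy.2).eq]; group
    rw [e]
    exact conj_Q hx hy.1 hy.2
  have h2 : IsPGroup 2 (zpowers q) := IsPGroup.of_card_dvd_pow (n := 2) (by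
    rw [Nat.card_zpowers, orderOf_dvd_iff_pow_eq_one, ← D.zz, ← qq]; simp [pow_succ, mul_assoc])
  have h3 := sylA.eq_of_le (h2.to_sup_of_normal_right' sylA.isPGroup hn) le_sup_right
    (sup_le (zpowers_le.2 qA) inf_le_right)
  have qS : q ∈ D.S := (h3.le (mem_sup_left (mem_zpowers q))).1
  exact ⟨q, qS, qA, k, (mul_mem_cancel_left qS).1 hx, kK, qq, kk, rfl⟩

theorem U.ne {x : G} (h : D.U x) (hx : x ∈ D.S) : ¬ (x = 1 ∨ x = D.z) := fun e => by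
  obtain ⟨q, qS, qA, k, kS, kK, qq, kk, rfl⟩ := h.inS hx
  have qK : q ∈ D.K := by
    rw [← mul_mem_cancel_right kK]
    rcases e with e | e <;> rw [e]
    exacts [one_mem _, zK]
  obtain ⟨p, rfl | rfl⟩ := D.memQ q qS qA
  · exact not_comm_j qq (K_comm qK D.jA)
  · have := (((act_w p).mul act_j).uniq (act_K qK)).1
    rcases D.hN with h | h <;> rw [h.1] at this <;> omega

theorem U.comm {x y : G} (h : D.U x) (h' : D.U y) (hx : x ∈ D.S) (hy : y ∈ D.S) (c : Commute x y) :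
    y = x ∨ y = x * D.z := by
  obtain ⟨q, qS, qA, k, kS, kK, qq, kk, rfl⟩ := h.inS hx
  obtain ⟨q', qS', qA', k', kS', kK', qq', kk', rfl⟩ := h'.inS hy
  have c1 : Commute (q * k) q' := by
    have := c.mul_right ((K_comm kK' qA).mul_left (R_comm kS kK kS' kK')).inv_right
    rwa [mul_inv_cancel_right] at this
  have c2 : Commute q q' := by
    have := c1.mul_left (K_comm kK qA').symm.inv_left
    rwa [mul_inv_cancel_right] at this
  have hz := Qd.mem_C.1 (KC kK)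
  rcases Q_four qS qA qS' qA' c2 qq qq' with rfl | rfl <;> rcases R_four kS kK kS' kK' kk kk' with rfl | rfl
  · exact Or.inl rfl
  · exact Or.inr (mul_assoc ..).symm
  · exact Or.inr (by rw [mul_assoc, ← hz, mul_assoc])
  · exact Or.inl (by rw [hz, mul_assoc, ← mul_assoc D.z, D.zz, one_mul])

theorem exists_conj_S {x : G} (hx : x ∈ D.C) {n : ℕ} (h : x ^ 2 ^ n = 1) : ∃ c ∈ D.C, c * x * c⁻¹ ∈ D.S := by
  haveI : Fact (Nat.Prime 2) := ⟨Nat.prime_two⟩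
  obtain ⟨c, hc, e⟩ := D.syl.exists_conj_le (U := zpowers x) (IsPGroup.of_card_dvd_pow (n := n) (by
    rw [Nat.card_zpowers, orderOf_dvd_iff_pow_eq_one, h])) (zpowers_le.2 hx)
  exact ⟨c, hc, e (conj_mem_conj_smul c (mem_zpowers x))⟩

theorem U.isConj {x y : G} (h : D.U x) (h' : D.U y) : IsConj x y := by
  obtain ⟨c, hc, cS⟩ := exists_conj_S (n := 1) h.mem_C (by rw [pow_one, pow_two, h.sq])
  obtain ⟨d, hd, dS⟩ := exists_conj_S (n := 1) h'.mem_C (by rw [pow_one, pow_two, h'.sq])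
  obtain ⟨q, qS, qA, k, kS, kK, qq, kk, e⟩ := (h.conj hc).inS cS
  obtain ⟨q', qS', qA', k', kS', kK', qq', kk', e'⟩ := (h'.conj hd).inS dS
  have key : ∀ q'' ∈ D.A, q'' * q'' = D.z → IsConj (q * k) (q'' * k) := fun q'' h1 h2 => by
    obtain ⟨g, gA, eg⟩ := D.fus q qA q'' h1 qq h2
    exact isConj_iff.2 ⟨g, by rw [← conj_mul, eg, (K_comm kK gA).eq, mul_inv_cancel_right]⟩
  refine (isConj_iff.2 ⟨c, e⟩).trans (IsConj.trans ?_ (isConj_iff.2 ⟨d, e'⟩).symm)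
  rcases R_four kS kK kS' kK' kk kk' with rfl | rfl
  · exact key q' qA' qq'
  · rw [Qd.mem_C.1 (KC kK), ← mul_assoc]
    refine key _ (mul_mem qA' zA) ?_
    rw [← pow_two, Commute.mul_pow (Qd.mem_C.1 (D.AC qA')), pow_two, pow_two, qq', D.zz, mul_one]

end Qd

end CL.HatA
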