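/-
HATA, small degrees: the involutions of `S` and their fusion.
-/
import Cfsg.Agent.HatA.SmFus1
import Cfsg.Agent.Transfer.Control

set_option autoImplicit false
set_option linter.unusedSectionVars false

namespace CL.HatA

open Subgroup CL.Grp

namespace Qd

variable {G : Type*} [Group G] [Finite G] {D : Qd G}

theorem Act.sq {x : G} {m i : ℤ} (h : D.Act x m i) (xx : x * x = 1) : D.N ∣ m * i + i := by
  have := ((act_K (one_mem D.K)).uniq (xx ▸ h.mul h)).2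
  rwa [sub_zero] at this

theorem Act.conj_w {x : G} {m i : ℤ} (h : D.Act x m i) (p : ℤ) :
    D.w ^ p * x * (D.w ^ p)⁻¹ = D.w ^ (p - m * p) * x := by
  rw [zpow_sub, ← h.zpow]; group

theorem Act.conj_j {x : G} {m i : ℤ} (h : D.Act x m i) : D.j * x * D.j⁻¹ = D.w ^ (-i) * x := by
  have e : x * D.j⁻¹ * x⁻¹ = D.j⁻¹ * D.w ^ (-i) := by rw [← conj_inv, h.2]; group
  calc _ = D.j * (x * D.j⁻¹ * x⁻¹) * x := by group
    _ = _ := by rw [e, mul_inv_cancel_left]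

theorem Act.conj_wj {x : G} {m i : ℤ} (h : D.Act x m i) (p : ℤ) :
    x * (D.w ^ p * D.j) * x⁻¹ = D.w ^ (m * p + i) * D.j := by
  rw [← conj_mul, h.zpow, h.2, zpow_add, mul_assoc]

theorem Act.dt {x : G} {m i : ℤ} (hx : x ∈ D.S) (xx : x * x = 1) (h : D.Act x m i)
    (hm : m = 1 ∨ m = -1 ∨ m = 3 ∨ m = -3) (hi : Odd i) : D.N ∣ m + 1 := by
  have h1 := h.sq xx
  obtain ⟨p, rfl⟩ := hi
  rcases hm with rfl | rfl | rfl | rfl <;> rcases D.hN with e | e <;> rw [e.1] at h1 ⊢ <;> omega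

/-- An involution of `S` is of diagonal type or acts with an even parameter. -/
theorem dt_or {x : G} (hx : x ∈ D.S) (xx : x * x = 1) :
    D.Dt x ∨ ∃ m i : ℤ, (m = 1 ∨ m = -1 ∨ m = 3 ∨ m = -3) ∧ D.Act x m (2 * i) := by
  obtain ⟨m, i, hm, h⟩ := act hx
  rcases Int.even_or_odd' i with ⟨p, rfl | rfl⟩
  · exact Or.inr ⟨m, p, hm, h⟩
  · refine Or.inl ⟨hx, xx, _, ⟨p, rfl⟩, h.congr ?_ (by simp)⟩
    rw [← dvd_neg, show -(-1 - m) = m + 1 by ring]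
    exact h.dt hx xx hm ⟨p, rfl⟩

/-- The element of order four of `⟨w⟩`. -/
def a (D : Qd G) : G := D.w ^ ((D.h : ℤ) / 2)

theorem aS : D.a ∈ D.S := zpow_mem D.wS _

theorem aA : D.a ∈ D.A := zpow_mem D.wA _

theorem aa : D.a * D.a = D.z := by
  rw [a, ← zpow_add, ← wz, w_eq]
  rcases D.hN with e | e <;> rw [e.1, e.2] <;> omega

theorem factA_S {x : G} (hx : x ∈ D.S) (xx : x * x = 1) (h1 : ¬ (x = 1 ∨ x = D.z)) :
    ∃ q ∈ D.S, q * x * q⁻¹ = D.z * x := by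
  obtain ⟨m, i, hm, h⟩ := act hx
  have key : ∀ p : ℤ, D.N ∣ D.h - (p - m * p) → ∃ q ∈ D.S, q * x * q⁻¹ = D.z * x := fun p hp =>
    ⟨_, zpow_mem D.wS p, by rw [h.conj_w, ← wz, w_eq.2 hp]⟩
  by_cases hm1 : D.N ∣ m - 1
  · have h2 := (h.congr (n := 1) (dvd_sub_comm.1 hm1) (k := i) (by simp)).sq xx
    by_cases hi : D.N ∣ i
    · exact (h1 (R_sq hx ((h.congr (dvd_sub_comm.1 hm1) (by simpa using hi)).mem_K hx) xx)).elim
    · refine ⟨_, D.jS, ?_⟩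
      rw [h.conj_j, ← wz, w_eq.2]
      rcases D.hN with e | e <;> rw [e.1] at h2 hi ⊢ <;> rw [e.2] <;> omega
  · rcases D.hN with e | e <;> rw [e.1] at hm1 <;> rw [e.1, e.2] at key <;> rcases hm with rfl | rfl | rfl | rfl <;>
      first | omega | exact key 1 (by omega) | exact key 2 (by omega)

theorem factA {x : G} (hx : x ∈ D.C) (xx : x * x = 1) (h1 : ¬ (x = 1 ∨ x = D.z)) :
    ∃ c ∈ D.C, c * x * c⁻¹ = D.z * x := by
  obtain ⟨c, hc, cS⟩ := exists_conj_S (n := 1) hx (by rw [pow_one, pow_two, xx])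
  obtain ⟨q, qS, e⟩ := factA_S cS (by rw [conj_mul, xx]; group) (by
    rw [conj_eq_one_iff, ← conj_z hc, mul_left_inj, mul_right_inj]; exact h1)
  refine ⟨c⁻¹ * q * c, mul_mem (mul_mem (inv_mem hc) (SC qS)) hc, ?_⟩
  calc _ = c⁻¹ * (q * (c * x * c⁻¹) * q⁻¹) * c := by group
    _ = _ := by rw [e, ← mul_assoc, ← mul_assoc, ← mul_assoc, mem_C.1 (inv_mem hc)]; group

theorem syl_top : IsSylowIn 2 D.S ⊤ := by
  haveI : Fact (Nat.Prime 2) := ⟨Nat.prime_two⟩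
  obtain ⟨P, hP⟩ := D.syl.exists_sylow_inf_eq
  have hle : D.S ≤ P := hP ▸ inf_le_left
  rcases hle.eq_or_lt with e | e
  · exact e ▸ isSylowIn_top P
  obtain ⟨g, ⟨gP, gN⟩, hg⟩ := SetLike.exists_of_lt (lt_inf_normalizer_of_isPGroup P.2 e)
  refine (hg (hP ▸ ⟨gP, mem_C.2 (mul_inv_eq_iff_eq_mul.1 ?_)⟩)).elim
  by_contra hne
  obtain ⟨q, qS, e⟩ := factA_S ((mem_normalizer_iff.1 gN _).1 zS) (by rw [conj_mul, D.zz]; group) (by
    rw [conj_eq_one_iff]; exact fun h => h.elim D.z1 hne)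
  have c := mem_C.1 (SC ((mem_normalizer_iff''.1 gN q).1 qS))
  refine D.z1 (mul_right_cancel (e.symm.trans ?_))
  calc _ = g * (g⁻¹ * q * g * D.z) * g⁻¹ * q⁻¹ := by group
    _ = _ := by rw [c]; group

theorem odd_S : Odd D.S.index := by
  have := (syl_top (D := D)).not_dvd
  rw [relIndex_top_right] at this
  exact Nat.not_even_iff_odd.1 fun h => this h.two_dvd

theorem sq_conj {t : G} (h : IsConj D.z t) : t * t = 1 := by
  obtain ⟨g, rfl⟩ := isConj_iff.1 h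
  rw [conj_mul, D.zz]; group

theorem ne_conj {t : G} (h : IsConj D.z t) (h1 : t ≠ D.z) : ¬ (t = 1 ∨ t = D.z) := fun e =>
  e.elim (fun e => D.z1 (isConj_one_left.1 (e ▸ h))) h1

theorem swap {t : G} (h : IsConj D.z t) (hC : t ∈ D.C) (h1 : t ≠ D.z) : ∃ σ, σ * D.z * σ⁻¹ = t ∧ σ * t * σ⁻¹ = D.z := by
  obtain ⟨c, hc, ec⟩ := factA hC (sq_conj h) (ne_conj h h1)
  have tt := sq_conj h
  have tz := mem_C.1 hC
  obtain ⟨g, eg⟩ := isConj_iff.1 h
  have h2 : IsConj D.z (g⁻¹ * D.z * g) := isConj_iff.2 ⟨g⁻¹, by rw [inv_inv]⟩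
  obtain ⟨c', hc', ec'⟩ := factA (D := D) (x := g⁻¹ * D.z * g) (mem_C.2 (by
    calc _ = g⁻¹ * (D.z * (g * D.z * g⁻¹)) * g := by group
      _ = _ := by rw [eg, ← tz, ← eg]; group)) (sq_conj h2) (ne_conj h2 fun e => h1 (by rw [← eg]; nth_rw 1 [← e]; group))
  have d1 : g * c' * g⁻¹ * D.z * (g * c' * g⁻¹)⁻¹ = t * D.z := by
    calc _ = g * (c' * (g⁻¹ * D.z * g) * c'⁻¹) * g⁻¹ := by group
      _ = _ := by rw [ec', ← eg]; group
  have d2 : g * c' * g⁻¹ * t * (g * c' * g⁻¹)⁻¹ = t := by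
    calc _ = g * (c' * (g⁻¹ * t * g) * c'⁻¹) * g⁻¹ := by group
      _ = _ := by rw [← eg, show g⁻¹ * (g * D.z * g⁻¹) * g = D.z by group, conj_z hc']
  generalize g * c' * g⁻¹ = d at d1 d2
  refine ⟨c * d * c, ?_, ?_⟩
  · calc _ = c * (d * (c * D.z * c⁻¹) * d⁻¹) * c⁻¹ := by group
      _ = _ := by rw [conj_z hc, d1, ← conj_mul, ec, conj_z hc, mul_assoc, tz, ← mul_assoc, D.zz, one_mul]
  · calc _ = c * (d * (c * t * c⁻¹) * d⁻¹) * c⁻¹ := by group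
      _ = _ := by rw [ec, ← conj_mul (b := d), d1, d2, tz, mul_assoc D.z, tt, mul_one, conj_z hc]

theorem conj_comm {g x y : G} (c : Commute x y) : Commute (g * x * g⁻¹) (g * y * g⁻¹) := c.conj g

theorem factB {t e : G} (h : IsConj D.z t) (hC : t ∈ D.C) (h1 : t ≠ D.z) (c : Commute e t) (ee : e * e = D.z) :
    D.U t := by
  obtain ⟨σ, s1, s2⟩ := swap h hC h1
  obtain ⟨d, hd, dS⟩ := exists_conj_S (D := D) (x := σ * e * σ⁻¹) (n := 2) (mem_C.2 (s2 ▸ (conj_comm c).eq)) (by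
    rw [conj_pow, show e ^ 2 ^ 2 = e * e * (e * e) by simp [pow_succ, mul_assoc], ee, D.zz]; group)
  obtain ⟨m, i, hm, hA⟩ := act dS
  have h2 := hA.mul hA
  have h3 := mul_mem dS dS
  rw [conj_mul, conj_mul, ee, s1] at h2 h3
  have h4 : IsConj D.z (d * t * d⁻¹) := h.trans (isConj_iff.2 ⟨d, rfl⟩)
  have := ((h2.tr h3 (sq_conj h4) (by rcases hm with rfl | rfl | rfl | rfl <;> rcases D.hN with e | e <;> rw [e.1] <;> omega)
    (by rw [Int.even_iff]; rcases hm with rfl | rfl | rfl | rfl <;> omega)).resolve_left (ne_conj h4 (by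
      rw [← conj_z hd, Ne, mul_left_inj, mul_right_inj]; exact h1))).conj (inv_mem hd)
  simpa [mul_assoc] using this

theorem conj_z_cases {t : G} (h : IsConj D.z t) (ht : t ∈ D.S) (h1 : t ≠ D.z) : D.U t ∨ D.Dt t := by
  refine (dt_or ht (sq_conj h)).symm.imp_left fun ⟨m, i, hm, hA⟩ => ?_
  have k1 : D.N ∣ m * (D.h / 2) - D.h / 2 → D.U t := fun hp => factB h (SC ht) h1
    (Commute.symm (mul_inv_eq_iff_eq_mul.1 (by rw [a, hA.zpow, w_eq, dvd_sub_comm]; exact hp))) aa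
  have k2 : ∀ p : ℤ, D.N ∣ p - (m * p + 2 * i) → D.U t := fun p hp => factB h (SC ht) h1
    (Commute.symm (mul_inv_eq_iff_eq_mul.1 (by rw [hA.conj_wj, w_eq.2 hp]))) (sq_wj p)
  rcases D.hN with e | e <;> rw [e.1, e.2] at k1 <;> rw [e.1] at k2 <;> rcases hm with rfl | rfl | rfl | rfl <;>
    first | exact k1 (by omega) | exact k2 i (by omega) | exact k2 (-i) (by omega)

/-- The elements of `S` on which the two characters agree. -/
def M (D : Qd G) : Subgroup G where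
  carrier := {s | s ∈ D.S ∧ ∃ m i, D.Act s m i ∧ (m = 1 ∨ m = -1 ∨ m = 3 ∨ m = -3) ∧
    ((D.N ∣ m - 1 ∨ D.N ∣ m + 1) ↔ i % 2 = 0)}
  one_mem' := ⟨one_mem _, 1, 0, act_K (one_mem _), by simp, by simp⟩
  mul_mem' := by
    rintro s t ⟨hs, m, i, h, hm, e⟩ ⟨ht, n, k, h', hn, e'⟩
    obtain ⟨l, c, hl, h2⟩ := act (mul_mem hs ht)
    obtain ⟨h3, h4⟩ := (h.mul h').uniq h2
    refine ⟨mul_mem hs ht, l, c, h2, hl, ?_⟩
    rcases D.hN with d | d <;> rw [d.1] at e e' h3 h4 ⊢ <;> rcases hm with rfl | rfl | rfl | rfl <;>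
      rcases hn with rfl | rfl | rfl | rfl <;> omega
  inv_mem' := by
    rintro s ⟨hs, m, i, h, hm, e⟩
    obtain ⟨l, c, hl, h2⟩ := act (inv_mem hs)
    obtain ⟨h3, h4⟩ := (h.mul h2).uniq (by rw [mul_inv_cancel]; exact act_K (one_mem _))
    refine ⟨inv_mem hs, l, c, h2, hl, ?_⟩
    rcases D.hN with d | d <;> rw [d.1] at e h3 h4 ⊢ <;> rcases hm with rfl | rfl | rfl | rfl <;>
      rcases hl with rfl | rfl | rfl | rfl <;> omega

theorem M_mul {s t : G} (hs : s ∈ D.S) (ht : t ∈ D.S) (h1 : s ∉ D.M) (h2 : t ∉ D.M) : s * t ∈ D.M := by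
  obtain ⟨m, i, hm, h⟩ := act hs
  obtain ⟨n, k, hn, h'⟩ := act ht
  obtain ⟨l, c, hl, h3⟩ := act (mul_mem hs ht)
  obtain ⟨h4, h5⟩ := (h.mul h').uniq h3
  have e : ¬ _ := fun e => h1 ⟨hs, m, i, h, hm, e⟩
  have e' : ¬ _ := fun e => h2 ⟨ht, n, k, h', hn, e⟩
  refine ⟨mul_mem hs ht, l, c, h3, hl, ?_⟩
  rcases D.hN with d | d <;> rw [d.1] at e e' h4 h5 ⊢ <;> rcases hm with rfl | rfl | rfl | rfl <;>
    rcases hn with rfl | rfl | rfl | rfl <;> omega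

theorem M_tr {x : G} (hx : x ∈ D.M) (xx : x * x = 1) : (x = 1 ∨ x = D.z) ∨ D.U x := by
  obtain ⟨hs, m, i, h, hm, e⟩ := hx
  rcases Int.even_or_odd i with hi | hi
  · exact h.tr hs xx (e.2 (Int.even_iff.1 hi)) hi
  · have := e.1 (Or.inr (h.dt hs xx hm hi))
    have := Int.odd_iff.1 hi
    omega

theorem two_classes (h2 : ∀ N : Subgroup G, N.index ≠ 2) {x : G} (xx : x * x = 1) :
    ∃ g, (g * x * g⁻¹ = 1 ∨ g * x * g⁻¹ = D.z) ∨ D.U (g * x * g⁻¹) := by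
  haveI : Fact (Nat.Prime 2) := ⟨Nat.prime_two⟩
  suffices h : ∃ g, g * x * g⁻¹ ∈ D.M from h.imp fun g hg => M_tr hg (by rw [conj_mul, xx]; group)
  by_contra! hc
  obtain ⟨c, -, e⟩ := (syl_top (D := D)).exists_conj_le (U := zpowers x) (IsPGroup.of_card_dvd_pow (n := 1) (by
    rw [Nat.card_zpowers, orderOf_dvd_iff_pow_eq_one, pow_one, pow_two, xx])) le_top
  have cS := e (conj_mem_conj_smul c (mem_zpowers x))
  obtain ⟨N, -, hN, -⟩ := CL.Transfer.thompson_transfer D.S D.M odd_S (relIndex_eq_two_iff_exists_notMem_and.2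
    ⟨_, cS, hc c, fun b hb => or_iff_not_imp_right.2 fun h => M_mul hb cS h (hc c)⟩) x (by rw [pow_two, xx]) hc
  exact h2 N hN

theorem Dt.comm_Q {t q k : G} (h : D.Dt t) (qS : q ∈ D.S) (qA : q ∈ D.A) (kS : k ∈ D.S) (kK : k ∈ D.K)
    (kk : k * k = D.z) (c : Commute t (q * k)) : ∃ p : ℤ, q = D.w ^ p := by
  obtain ⟨tS, -, i, ⟨l, rfl⟩, hA⟩ := h
  obtain ⟨p, e | rfl⟩ := D.memQ q qS qA
  · exact ⟨p, e⟩
  have e : t * (D.w ^ p * D.j) * t⁻¹ * (t * k * t⁻¹) = D.w ^ p * D.j * k := by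
    rw [conj_mul, c.eq, mul_inv_cancel_right]
  rw [hA.conj_wj] at e
  exfalso
  rcases R_four kS kK (mul_mem (mul_mem tS kS) (inv_mem tS)) (K_conj (SC tS) kK) kk
    (by rw [conj_mul, kk, conj_z (SC tS)]) with e1 | e1 <;> rw [e1] at e
  · have := w_eq.1 (mul_right_cancel (mul_right_cancel e))
    rcases D.hN with d | d <;> rw [d.1] at this <;> omega
  · rw [mem_C.1 (KC kK), ← mul_assoc, mul_assoc _ D.j, mem_C.1 (SC D.jS), ← mul_assoc, ← wz, ← zpow_add] at e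
    have := w_eq.1 (mul_right_cancel (mul_right_cancel e))
    rcases D.hN with d | d <;> rw [d.1, d.2] at this <;> omega

theorem Dt.comm_inv {t x : G} (h : D.Dt t) (hx : x ∈ D.S) (xx : x * x = 1) (c : Commute x t) :
    ((x = 1 ∨ x = D.z) ∨ D.U x) ∨ ((x * t = 1 ∨ x * t = D.z) ∨ D.U (x * t)) := by
  obtain ⟨tS, tt, i, ⟨l, rfl⟩, hA⟩ := h
  have h1 : x * t * (x * t) = 1 := by rw [← pow_two, c.mul_pow, pow_two, pow_two, xx, tt, mul_one]
  rcases dt_or hx xx with ⟨-, -, k, ⟨n, rfl⟩, hB⟩ | ⟨m, k, hm, hB⟩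
  · exact Or.inr ((hB.mul hA).tr (mul_mem hx tS) h1 (Or.inl (by simp)) (by rw [Int.even_iff]; omega))
  · have h2 := (hB.mul hA).dt (mul_mem hx tS) h1 (by omega) (by rw [Int.odd_iff]; rcases hm with rfl | rfl | rfl | rfl <;> omega)
    exact Or.inl (hB.tr hx xx (Or.inl (by rw [← dvd_neg, show -(m - 1) = m * -1 + 1 by ring]; exact h2)) (even_two_mul _))

theorem Dt.conj_W {t : G} (h : D.Dt t) (p : ℤ) : ∃ c ∈ D.S, c ∈ D.A ∧ c * t * c⁻¹ = D.w ^ p * t := by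
  obtain ⟨tS, tt, i, ⟨l, rfl⟩, hA⟩ := h
  rcases Int.even_or_odd' p with ⟨n, rfl | rfl⟩
  · exact ⟨_, zpow_mem D.wS n, zpow_mem D.wA n, by rw [hA.conj_w]; congr 2; ring⟩
  · refine ⟨_, mul_mem (zpow_mem D.wS (n + l + 1)) D.jS, mul_mem (zpow_mem D.wA _) D.jA, ?_⟩
    calc _ = D.w ^ (n + l + 1) * (D.j * t * D.j⁻¹) * (D.w ^ (n + l + 1))⁻¹ := by group
      _ = D.w ^ (-(2 * l + 1)) * (D.w ^ (n + l + 1) * t * (D.w ^ (n + l + 1))⁻¹) := by rw [hA.conj_j]; group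
      _ = _ := by rw [hA.conj_w, ← mul_assoc, ← zpow_add]; congr 2; ring

end Qd

end CL.HatA
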