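/-
HATA, small degrees: the two cases of the fusion argument.
-/
import Cfsg.Agent.HatA.SmFus2
import Cfsg.Agent.ZD.Tools2

set_option autoImplicit false
set_option linter.unusedSectionVars false

namespace CL.HatA

open Subgroup CL.Grp
open scoped Pointwise

namespace Qd

variable {G : Type*} [Group G] [Finite G] {D : Qd G}

/-- The elements of `σ S σ⁻¹` centralising `z` are conjugate into `S` under `C(z)`. -/
theorem exists_conj_conj (σ : G) : ∃ c ∈ D.C, ∀ x ∈ D.S, σ * x * σ⁻¹ ∈ D.C → c * σ * x * (c * σ)⁻¹ ∈ D.S := by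
  haveI : Fact (Nat.Prime 2) := ⟨Nat.prime_two⟩
  obtain ⟨c, hc, e⟩ := D.syl.exists_conj_le (U := (MulAut.conj σ • D.S : Subgroup G) ⊓ D.C)
    (IsPGroup.conj_smul D.syl.isPGroup σ).to_inf_left inf_le_right
  refine ⟨c, hc, fun x hx h => ?_⟩
  have := e (conj_mem_conj_smul c ⟨conj_mem_conj_smul σ hx, h⟩)
  rwa [show c * (σ * x * σ⁻¹) * c⁻¹ = c * σ * x * (c * σ)⁻¹ by group] at this

theorem Act.pow_h {s : G} {m i : ℤ} (h : D.Act s m (2 * i)) (hm : m = 1 ∨ m = -1 ∨ m = 3 ∨ m = -3) :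
    Commute (s ^ D.h) D.j := by
  have h2 := h.mul h
  have key : ∀ {y : G} {n k : ℤ}, D.Act y n k → D.N ∣ k → Commute y D.j := fun hy hk =>
    mul_inv_eq_iff_eq_mul.1 (by rw [hy.2, (w_eq (b := 0)).2 (by simpa using hk), zpow_zero, one_mul])
  rcases D.hh with e | e <;> rw [e]
  · rw [pow_two]
    refine key h2 ?_
    rw [N, e]
    rcases hm with rfl | rfl | rfl | rfl <;> omega
  · rw [show s ^ 4 = s * s * (s * s) by simp [pow_succ, mul_assoc]]
    refine key (h2.mul h2) ?_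
    rw [N, e]
    rcases hm with rfl | rfl | rfl | rfl <;> omega

theorem false_of_one_class (hall : ∀ x : G, x * x = 1 → x ≠ 1 → IsConj D.z x) {u x : G} (hu : D.U u) (uS : u ∈ D.S)
    (xS : x ∈ D.S) (xx : x * x = 1) (c : Commute x u) (h1 : ¬ (x = 1 ∨ x = D.z)) (h2 : ¬ D.U x) : False := by
  have hx := (conj_z_cases (hall x xx fun e => h1 (.inl e)) xS fun e => h1 (.inr e)).resolve_left h2
  have cw : Commute D.w u := by
    obtain ⟨q, qS, qA, k, kS, kK, qq, kk, rfl⟩ := hu.inS uS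
    obtain ⟨p, rfl⟩ := hx.comm_Q qS qA kS kK kk c
    exact (Commute.self_zpow _ _).mul_right (K_comm kK D.wA)
  obtain ⟨σ, s1, s2⟩ := swap (hall u hu.sq fun e => hu.ne uS (.inl e)) hu.mem_C fun e => hu.ne uS (.inr e)
  obtain ⟨d, hd, hS⟩ := exists_conj_conj (D := D) σ
  have wS := hS _ D.wS (mem_C.2 (s2 ▸ (conj_comm cw).eq))
  have xS' := hS _ xS (mem_C.2 (s2 ▸ (conj_comm c).eq))
  have vS := hS _ zS (s1 ▸ hu.mem_C)
  have hv : D.U (d * σ * D.z * (d * σ)⁻¹) := by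
    rw [show d * σ * D.z * (d * σ)⁻¹ = d * (σ * D.z * σ⁻¹) * d⁻¹ by group, s1]; exact hu.conj hd
  have gu : d * σ * u * (d * σ)⁻¹ = D.z := by rw [← conj_z hd, ← s2]; group
  generalize d * σ = g at wS xS' vS hv gu
  have key : ∀ y ∈ D.S, g * y * g⁻¹ ∈ D.S → y * y = 1 → y * D.w * y⁻¹ = D.w ^ (-1 : ℤ) → D.Dt (g * y * g⁻¹) := by
    intro y yS hy yy e
    have nc : ¬ Commute y D.w := fun c => by
      rw [c.eq, mul_inv_cancel_right, ← zpow_one D.w, ← zpow_mul, w_eq] at e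
      rcases D.hN with d | d <;> rw [d.1] at e <;> omega
    have cz : Commute D.z D.w := (mem_C.1 (SC D.wS)).symm
    have n1 : g * y * g⁻¹ ≠ D.z := fun e => nc (by
      rw [← gu, mul_left_inj, mul_right_inj] at e
      exact e ▸ cw.symm)
    refine (conj_z_cases (hall _ (by rw [conj_mul, yy]; group) ?_) hy n1).resolve_left fun hU => nc ?_
    · rw [Ne, conj_eq_one_iff]
      rintro rfl
      exact nc (Commute.one_left _)
    · rcases hv.comm hU vS hy (conj_comm (Commute.symm (mem_C.1 (SC yS)))) with e | e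
      · rw [mul_left_inj, mul_right_inj] at e
        exact e ▸ cz
      · nth_rw 2 [← gu] at e
        rw [conj_mul, mul_left_inj, mul_right_inj] at e
        exact e ▸ cz.mul_left cw.symm
  obtain ⟨-, -, i, -, hA⟩ := id hx
  have d1 := key x xS xS' xx hA.1
  have d2 := key (x * D.w) (mul_mem xS D.wS) (conj_mul (b := g) ▸ mul_mem xS' wS) (by
    have := hA.1
    rw [inv_eq_of_mul_eq_one_right xx] at this
    rw [← mul_assoc, this]; group) (by rw [← hA.1]; group)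
  obtain ⟨m, l, hm, hB⟩ := act wS
  obtain ⟨l, rfl⟩ : ∃ n, l = 2 * n := by
    obtain ⟨-, -, i₁, ⟨i₁, rfl⟩, h1⟩ := d1
    obtain ⟨-, -, i₂, ⟨i₂, rfl⟩, h2⟩ := d2
    have := ((h1.mul hB).uniq (conj_mul (b := g) ▸ h2)).2
    refine ⟨l / 2, ?_⟩
    rcases D.hN with d | d <;> rw [d.1] at this <;> omega
  have h3 := hB.pow_h hm
  rw [conj_pow, D.wh] at h3
  obtain ⟨q, qS, qA, k, kS, kK, qq, kk, e⟩ := hv.inS vS
  obtain ⟨p, rfl⟩ := d1.comm_Q qS qA kS kK kk (e ▸ conj_comm (mem_C.1 (SC xS)))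
  refine not_comm_j qq ?_
  have := (e ▸ h3.symm).mul_right (K_comm kK D.jA).inv_right
  rwa [mul_inv_cancel_right] at this

theorem Dt.conj_a {t : G} (h : D.Dt t) : t * D.a * t⁻¹ = D.a * D.z := by
  obtain ⟨-, -, i, -, hA⟩ := h
  rw [a, hA.zpow, ← wz, ← zpow_add, w_eq]
  rcases D.hN with d | d <;> rw [d.1, d.2] <;> omega

theorem Dt.conj_k {t k : G} (h : D.Dt t) (kK : k ∈ D.K) (p : ℤ) : IsConj (k * t) (D.w ^ p * k * t) := by
  obtain ⟨c, -, cA, e⟩ := h.conj_W p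
  exact isConj_iff.2 ⟨c, by rw [← conj_mul, e, (K_comm kK cA).eq, mul_inv_cancel_right, ← mul_assoc,
    (K_comm kK (zpow_mem D.wA p)).eq]⟩

theorem Dt.conj_kz {t k : G} (h : D.Dt t) (kK : k ∈ D.K) (p : ℤ) : IsConj (k * t) (D.w ^ p * (k * D.z) * t) := by
  have := h.conj_k kK (p + D.h)
  rwa [zpow_add, wz, mul_assoc _ D.z, ← mem_C.1 (KC kK)] at this

/-- The group `Q ⟨t⟩`. -/
def Dt.M {t : G} (h : D.Dt t) : Subgroup G where
  carrier := {x | x ∈ D.S ∧ (x ∈ D.A ∨ x * t ∈ D.A)}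
  one_mem' := ⟨one_mem _, Or.inl (one_mem _)⟩
  mul_mem' := by
    have ti := inv_eq_of_mul_eq_one_right h.2.1
    rintro x y ⟨hx, h1 | h1⟩ ⟨hy, h2 | h2⟩ <;> refine ⟨mul_mem hx hy, ?_⟩
    · exact Or.inl (mul_mem h1 h2)
    · exact Or.inr (mul_assoc x y t ▸ mul_mem h1 h2)
    · have := mul_mem h1 (D.norm _ (inv_mem (SC h.1)) y h2)
      exact Or.inr (by convert this using 1; group)
    · have := mul_mem h1 (D.norm _ (inv_mem (SC h.1)) _ h2)
      rw [inv_inv, mul_assoc t⁻¹, mul_assoc y, h.2.1] at this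
      exact Or.inl (by convert this using 1; group)
  inv_mem' := by
    rintro x ⟨hx, h1 | h1⟩ <;> refine ⟨inv_mem hx, ?_⟩
    · exact Or.inl (inv_mem h1)
    · have := D.norm _ (SC h.1) _ (inv_mem h1)
      rw [mul_inv_rev, mul_inv_cancel_left, inv_eq_of_mul_eq_one_right h.2.1] at this
      exact Or.inr this

theorem Dt.M_inv {t x : G} (h : D.Dt t) (ht : IsConj D.z t) (hx : x ∈ h.M) (xx : x * x = 1) :
    x = 1 ∨ IsConj D.z x := by
  obtain ⟨xS, h1 | h1⟩ := hx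
  · exact (Q_sq xS h1 xx).imp_right fun e => by rw [e]
  have ex : x = x * t * t := by rw [mul_assoc, h.2.1, mul_one]
  obtain ⟨p, e | e⟩ := D.memQ _ (mul_mem xS h.1) h1 <;> rw [e] at ex
  · obtain ⟨c, -, -, e⟩ := h.conj_W p
    exact Or.inr (ht.trans (isConj_iff.2 ⟨c, ex ▸ e⟩))
  · obtain ⟨-, tt, i, ⟨i, rfl⟩, hA⟩ := h
    have := (ex ▸ ((act_w p).mul act_j).mul hA : D.Act x _ _).sq xx
    exfalso
    rcases D.hN with d | d <;> rw [d.1] at this <;> omega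

section two

variable (hno : ∀ x, D.U x → ¬ IsConj D.z x)
include hno

theorem dt_of {t : G} (h : IsConj D.z t) (ht : t ∈ D.S) (h1 : t ≠ D.z) : D.Dt t :=
  (conj_z_cases h ht h1).resolve_left fun hU => hno t hU h

theorem inv_k {t k : G} (h : IsConj D.z t) (ht : t ∈ D.S) (h1 : t ≠ D.z) (kS : k ∈ D.S) (kK : k ∈ D.K)
    (kk : k * k = D.z) : t * k * t⁻¹ = k * D.z :=
  (R_four kS kK (mul_mem (mul_mem ht kS) (inv_mem ht)) (K_conj (SC ht) kK) kk
    (by rw [conj_mul, kk, conj_z (SC ht)])).resolve_left fun e =>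
      hno t (factB h (SC ht) h1 (Commute.symm (mul_inv_eq_iff_eq_mul.1 e)) kk) h

variable {k : G} (kS : k ∈ D.S) (kK : k ∈ D.K) (kk : k * k = D.z)
include kS kK kk

theorem exists_t {t : G} (h : IsConj D.z t) (ht : t ∈ D.S) (h1 : t ≠ D.z) :
    ∃ t ∈ D.S, IsConj D.z t ∧ t ≠ D.z ∧ ¬ IsConj D.z (k * t) := by
  have hu : D.U (D.a * k) := ⟨_, aA, k, kK, aa, kk, rfl⟩
  have uS := mul_mem (aS (D := D)) kS
  have c : Commute (D.a * k) t := Commute.symm (mul_inv_eq_iff_eq_mul.1 (by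
    rw [← conj_mul, (dt_of hno h ht h1).conj_a, inv_k hno h ht h1 kS kK kk, mem_C.1 (KC kK), mul_assoc,
      ← mul_assoc D.z, D.zz, one_mul]))
  generalize D.a * k = u at hu uS c
  obtain ⟨σ, s1, s2⟩ := swap h (SC ht) h1
  obtain ⟨d, hd, hS⟩ := exists_conj_conj (D := D) σ
  have vS := hS _ uS (mem_C.2 (s2 ▸ (conj_comm c).eq))
  have tS := hS _ zS (s1 ▸ SC ht)
  have gt : d * σ * t * (d * σ)⁻¹ = D.z := by rw [← conj_z hd, ← s2]; group
  generalize d * σ = g at vS tS gt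
  have t1 : g * D.z * g⁻¹ ≠ D.z := fun e => h1 (by
    nth_rw 2 [← gt] at e
    rw [mul_left_inj, mul_right_inj] at e
    exact e.symm)
  have tc : IsConj D.z (g * D.z * g⁻¹) := isConj_iff.2 ⟨g, rfl⟩
  have hd := dt_of hno tc tS t1
  have n1 : ∀ x ∈ D.S, D.U x → ¬ IsConj D.z (g * x * g⁻¹) ∧ ¬ (g * x * g⁻¹ = 1 ∨ g * x * g⁻¹ = D.z) := fun x xS hx =>
    have h1 : ¬ IsConj D.z (g * x * g⁻¹) := fun e => hno x hx (e.trans (isConj_iff.2 ⟨g, rfl⟩).symm)
    ⟨h1, fun e => e.elim (fun e => hx.ne xS (.inl (conj_eq_one_iff.1 e))) fun e => h1 (e ▸ IsConj.refl _)⟩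
  have cz : Commute (g * u * g⁻¹) (g * D.z * g⁻¹) := conj_comm (mem_C.1 hu.mem_C)
  have key : ∀ v ∈ D.S, D.U v → Commute (g * D.z * g⁻¹) v → ¬ IsConj D.z (v * (g * D.z * g⁻¹)) →
      ¬ IsConj D.z (k * (g * D.z * g⁻¹)) := fun v vS hv c hn e => by
    obtain ⟨q, qS, qA, k', kS', kK', qq, kk', rfl⟩ := hv.inS vS
    obtain ⟨p, rfl⟩ := hd.comm_Q qS qA kS' kK' kk' c
    rcases R_four kS kK kS' kK' kk kk' with rfl | rfl
    · exact hn (e.trans (hd.conj_k kK p))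
    · exact hn (e.trans (hd.conj_kz kK p))
  refine ⟨_, tS, tc, t1, ?_⟩
  have n2 := n1 _ (mul_mem uS zS) hu.mul_z
  rw [← conj_mul] at n2
  rcases hd.comm_inv vS (by rw [conj_mul, hu.sq]; group) cz with (e | e) | e | e
  · exact ((n1 u uS hu).2 e).elim
  · exact key _ vS e cz.symm n2.1
  · exact (n2.2 e).elim
  · exact key _ (mul_mem vS tS) e (cz.symm.mul_right (Commute.refl _)) (by
      rw [mul_assoc, hd.2.1, mul_one]; exact (n1 u uS hu).1)

variable {t : G} (tS : t ∈ D.S) (tc : IsConj D.z t) (t1 : t ≠ D.z) (hk : ¬ IsConj D.z (k * t))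
include tS tc t1 hk

theorem no_kt {y : G} (yS : y ∈ D.S) (yK : y ∈ D.K) (yy : y * y = D.z) (p : ℤ) : ¬ IsConj D.z (D.w ^ p * y * t) := by
  intro e
  have hd := dt_of hno tc tS t1
  rcases R_four kS kK yS yK kk yy with rfl | rfl
  · exact hk (e.trans (hd.conj_k kK p).symm)
  · exact hk (e.trans (hd.conj_kz kK p).symm)

theorem R_cases {y : G} (yS : y ∈ D.S) (yK : y ∈ D.K) : (y = 1 ∨ y = D.z) ∨ y * y = D.z := by
  haveI : Fact (Nat.Prime 2) := ⟨Nat.prime_two⟩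
  have key : ∀ y ∈ D.S, y ∈ D.K → y * y * (y * y) ≠ D.z := fun y yS yK e => by
    have h1 := inv_k hno tc tS t1 (mul_mem yS yS) (mul_mem yK yK) e
    have S' := mul_mem (mul_mem tS yS) (inv_mem tS)
    have K' := K_conj (SC tS) yK
    have h2 := R_sq (mul_mem S' yS) (mul_mem K' yK) (by
      rw [← pow_two, (R_comm S' K' yS yK).mul_pow, pow_two, pow_two, conj_mul, h1, mul_assoc,
        ← mem_C.1 (SC (mul_mem yS yS)), ← mul_assoc, e, D.zz])
    have h3 : IsConj D.z (y * (t * y * t⁻¹)⁻¹ * t) := tc.trans (isConj_iff.2 ⟨y, by group⟩)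
    rcases h2 with h2 | h2
    · rw [inv_eq_of_mul_eq_one_right h2] at h3
      exact no_kt hno kS kK kk tS tc t1 hk (mul_mem yS yS) (mul_mem yK yK) e 0 (by simpa using h3)
    · rw [eq_mul_inv_of_mul_eq h2, mul_inv_rev, inv_inv, z_inv, ← mul_assoc] at h3
      refine no_kt hno kS kK kk tS tc t1 hk (mul_mem yS yS) (mul_mem yK yK) e D.h ?_
      rwa [wz, ← mem_C.1 (SC (mul_mem yS yS))]
  by_cases h4 : y ^ 4 = 1
  · exact (R_sq (mul_mem yS yS) (mul_mem yK yK) (by rw [← h4]; simp [pow_succ, mul_assoc])).imp_left (R_sq yS yK)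
  obtain ⟨n, hn⟩ := D.syl.isPGroup ⟨y, yS⟩
  obtain ⟨l, h1, h2⟩ := CL.Grp.exists_pow_notMem_pow_prime_mem (N := ⊥) (p := 2) (x := y ^ 4) (k := n)
    (by rw [← pow_mul, mul_comm, pow_mul, show y ^ 2 ^ n = 1 from congrArg Subtype.val hn, one_pow]; exact one_mem _)
    (by simpa using h4)
  rw [mem_bot] at h1 h2
  refine (key (y ^ 2 ^ l) (pow_mem yS _) (pow_mem yK _) ?_).elim
  have e : y ^ 2 ^ l * y ^ 2 ^ l * (y ^ 2 ^ l * y ^ 2 ^ l) = (y ^ 4) ^ 2 ^ l := by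
    rw [← pow_mul, mul_comm 4, pow_mul]; simp [pow_succ, mul_assoc]
  rw [e]
  exact (R_sq (pow_mem (pow_mem yS _) _) (pow_mem (pow_mem yK _) _) (by rw [← pow_two, h2])).resolve_left h1

theorem eq_wt {y : G} (yS : y ∈ D.S) (yc : IsConj D.z y) (y1 : y ≠ D.z) : ∃ p : ℤ, y = D.w ^ p * t := by
  obtain ⟨-, tt, i, ⟨i, rfl⟩, hA⟩ := dt_of hno tc tS t1
  obtain ⟨-, -, l, ⟨l, rfl⟩, hB⟩ := dt_of hno yc yS y1
  obtain ⟨q, qS, qA, ρ, rS, rK, e⟩ := (hB.mul hA).inn (mul_mem yS tS) (Or.inl (by simp)) (by rw [Int.even_iff]; omega)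
  have ey : y = q * ρ * t := by rw [← e, mul_assoc, tt, mul_one]
  obtain ⟨p, rfl | rfl⟩ := D.memQ q qS qA
  · rcases R_cases hno kS kK kk tS tc t1 hk rS rK with (rfl | rfl) | h
    · exact ⟨p, by rw [ey, mul_one]⟩
    · exact ⟨p + D.h, by rw [ey, zpow_add, wz]⟩
    · exact (no_kt hno kS kK kk tS tc t1 hk rS rK h p (ey ▸ yc)).elim
  · have := ((((act_w p).mul act_j).mul (act_K rK)).uniq (e ▸ hB.mul hA)).1
    exfalso
    rcases D.hN with d | d <;> rw [d.1] at this <;> omega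

theorem conj_t {s : G} (hs : s ∈ D.S) : ∃ p : ℤ, s * t * s⁻¹ = D.w ^ p * t :=
  eq_wt hno kS kK kk tS tc t1 hk (mul_mem (mul_mem hs tS) (inv_mem hs)) (tc.trans (isConj_iff.2 ⟨s, rfl⟩)) (by
    rw [← conj_z (SC hs), Ne, mul_left_inj, mul_right_inj]; exact t1)

theorem le_norm_M : D.S ≤ normalizer ((dt_of hno tc tS t1).M : Set G) := fun s hs => by
  refine mem_normalizer_fintype ?_
  rintro x ⟨xS, h | h⟩ <;> refine ⟨mul_mem (mul_mem hs xS) (inv_mem hs), ?_⟩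
  · exact Or.inl (D.norm s (SC hs) x h)
  · obtain ⟨p, e⟩ := conj_t hno kS kK kk tS tc t1 hk hs
    have := mul_mem (D.norm s (SC hs) _ h) (D.norm _ (inv_mem (SC tS)) _ (zpow_mem D.wA (-p)))
    rw [← conj_mul, e] at this
    exact Or.inr (by convert this using 1; group)

theorem mem_of_k {H : Subgroup G} (hH : (dt_of hno tc tS t1).M ≤ H) (kH : k ∈ H) {y : G} (yS : y ∈ D.S) {m i : ℤ}
    (h : D.Act y m i) (hm : D.N ∣ m - 1 ∨ D.N ∣ m + 1) : y ∈ H := by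
  have zH : D.z ∈ H := hH ⟨zS, Or.inl zA⟩
  have key : ∀ y ∈ D.S, ∀ m i : ℤ, D.Act y m i → (D.N ∣ m - 1 ∨ D.N ∣ m + 1) → Even i → y ∈ H := by
    intro y yS m i h hm hi
    obtain ⟨q, qS, qA, ρ, rS, rK, rfl⟩ := h.inn yS hm hi
    refine mul_mem (hH ⟨qS, Or.inl qA⟩) ?_
    rcases R_cases hno kS kK kk tS tc t1 hk rS rK with (rfl | rfl) | e
    exacts [one_mem _, zH, (R_four kS kK rS rK kk e).elim (· ▸ kH) (· ▸ mul_mem kH zH)]
  rcases Int.even_or_odd i with hi | ⟨i, rfl⟩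
  · exact key y yS m i h hm hi
  obtain ⟨-, tt, l, ⟨l, rfl⟩, hA⟩ := dt_of hno tc tS t1
  have h1 : Odd m := by rw [Int.odd_iff]; rcases D.hN with d | d <;> rw [d.1] at hm <;> omega
  have := key _ (mul_mem yS tS) _ _ (h.mul hA) (by rcases D.hN with d | d <;> rw [d.1] at hm ⊢ <;> omega)
    ((h1.mul ⟨l, rfl⟩).add_odd ⟨i, rfl⟩)
  exact (mul_mem_cancel_right (hH ⟨tS, Or.inr (tt ▸ one_mem _)⟩)).1 this

theorem exists_gen : ∃ g ∈ D.S, D.S ≤ (dt_of hno tc tS t1).M ⊔ zpowers g := by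
  by_cases hall : ∀ y ∈ D.S, ∀ m i : ℤ, (m = 3 ∨ m = -3) → D.Act y m i → D.N = 4
  · refine ⟨k, kS, fun y yS => ?_⟩
    obtain ⟨m, i, hm, h⟩ := act yS
    refine mem_of_k hno kS kK kk tS tc t1 hk le_sup_left (mem_sup_right (mem_zpowers k)) yS h ?_
    have := hall y yS m i
    rcases D.hN with d | d <;> rw [d.1] at this ⊢ <;> rcases hm with rfl | rfl | rfl | rfl <;>
      first | omega | exact absurd (this (by simp) h) (by decide)
  push Not at hall
  obtain ⟨g₀, gS₀, m₀, i₀, hm₀, h₀, hN⟩ := hall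
  obtain ⟨hN, hh⟩ := D.hN.resolve_left fun e => hN e.1
  have hd := dt_of hno tc tS t1
  obtain ⟨-, tt, l, ⟨l, rfl⟩, hA⟩ := id hd
  obtain ⟨g, gS, c, i, h⟩ : ∃ g ∈ D.S, Commute g t ∧ ∃ i, D.Act g 3 i := by
    obtain ⟨p, e⟩ := conj_t hno kS kK kk tS tc t1 hk gS₀
    obtain ⟨q, qS, qA, e'⟩ := hd.conj_W p
    have gS := mul_mem (inv_mem qS) gS₀
    have c : Commute (q⁻¹ * g₀) t := mul_inv_eq_iff_eq_mul.1 (by
      calc _ = q⁻¹ * (g₀ * t * g₀⁻¹) * q := by group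
        _ = _ := by rw [e, ← e']; group)
    obtain ⟨m, i, hm, h⟩ := act gS
    have h3 : m = 3 ∨ m = -3 := by
      obtain ⟨n, rfl | rfl⟩ := D.memQ q qS qA
      · have := (((act_w n).mul h).uniq (by rw [mul_inv_cancel_left]; exact h₀)).1
        rw [hN] at this; omega
      · have := ((((act_w n).mul act_j).mul h).uniq (by rw [mul_inv_cancel_left]; exact h₀)).1
        rw [hN] at this; omega
    rcases h3 with rfl | rfl
    · exact ⟨_, gS, c, i, h⟩
    · exact ⟨_, mul_mem gS tS, c.mul_left (Commute.refl t), _, h.mul hA⟩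
  have h1 := ((h.mul hA).uniq (c.eq ▸ hA.mul h)).2
  have rS := mul_mem (mul_mem gS gS) (aS (D := D))
  have rK : g * g * D.a ∈ D.K := (((h.mul h).mul (act_w _)).congr (by rw [hN]; omega)
    (by rw [hN] at h1 ⊢; rw [hh]; omega)).mem_K rS
  have rH : g * g * D.a ∈ hd.M ⊔ zpowers g := mul_mem (mem_sup_right (mul_mem (mem_zpowers g) (mem_zpowers g)))
    (mem_sup_left ⟨aS, Or.inl aA⟩)
  have kH : k ∈ hd.M ⊔ zpowers g := by
    rcases R_cases hno kS kK kk tS tc t1 hk rS rK with e | e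
    · have c1 : Commute t (g * g * D.a) := by
        rcases e with e | e <;> rw [e]
        exacts [Commute.one_right _, mem_C.1 (SC tS)]
      have c2 := (c.symm.mul_right c.symm).inv_right.mul_right c1
      rw [inv_mul_cancel_left] at c2
      have := hd.conj_a
      rw [c2.eq, mul_inv_cancel_right, left_eq_mul] at this
      exact (D.z1 this).elim
    · exact (R_four rS rK kS kK e kk).elim (· ▸ rH) (· ▸ mul_mem rH (mem_sup_left ⟨zS, Or.inl zA⟩))
  refine ⟨g, gS, fun y yS => ?_⟩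
  obtain ⟨m, n, hm, hy⟩ := act yS
  by_cases h2 : m = 1 ∨ m = -1
  · exact mem_of_k hno kS kK kk tS tc t1 hk le_sup_left kH yS hy (by rw [hN]; omega)
  · exact (mul_mem_cancel_right (mem_sup_right (mem_zpowers g))).1
      (mem_of_k hno kS kK kk tS tc t1 hk le_sup_left kH (mul_mem yS gS) (hy.mul h) (by rw [hN]; omega))

theorem not_perfect : commutator G ≠ ⊤ := fun hG => by
  obtain ⟨g, gS, hg⟩ := exists_gen hno kS kK kk tS tc t1 hk
  have hn := le_norm_M hno kS kK kk tS tc t1 hk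
  have hu : D.U (D.a * k) := ⟨_, aA, k, kK, aa, kk, rfl⟩
  refine CL.ZD.cycTransfer (u := D.a * k) odd_S hn inferInstance (zpowers_le.2 gS) (fun y hy => ?_) hu.sq
    (fun x hx => ?_) (hG ▸ mem_top _)
  · have := hg hy
    rw [← SetLike.mem_coe, coe_mul_of_right_le_normalizer_left _ _ ((zpowers_le.2 gS).trans hn)] at this
    obtain ⟨q, hq, c, hc, e⟩ := this
    exact ⟨q, hq, c, hc, e.symm⟩
  · rcases (dt_of hno tc tS t1).M_inv tc hx (by rw [conj_mul, hu.sq]; group) with e | e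
    · exact hu.ne (mul_mem aS kS) (.inl (conj_eq_one_iff.1 e))
    · exact hno _ hu (e.trans (isConj_iff.2 ⟨x, rfl⟩).symm)

end two

end Qd

end CL.HatA
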