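/-
HATA, small degrees: the group has 2-rank two and semidihedral or wreathed Sylow 2-subgroups.
-/
import Cfsg.Agent.HatA.SmFus3
import Cfsg.Agent.Inv.Rk2Fus
import Cfsg.Agent.Inv.ZStar
import Cfsg.Agent.Inv.Small1
import Cfsg.Agent.C2Low.Basic

set_option autoImplicit false
set_option linter.unusedSectionVars false

namespace CL.HatA

open Subgroup CL.Grp Cfsg
open scoped Pointwise

universe u

namespace Qd

variable {G : Type u} [Group G] [Finite G] [IsSimpleGroup G] (D : Qd G)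
include D

theorem nonab : ¬ IsMulCommutative G := fun h => not_comm_wj (D := D) (h.1.1 _ _)

theorem index_ne_two (N : Subgroup G) : N.index ≠ 2 := fun h => by
  have := normal_of_index_eq_two h
  have h1 := CL.Inv.commutator_eq_top_of_simple D.nonab
  have : IsCyclic (G ⧸ N) := isCyclic_of_prime_card (p := 2) h
  have h2 : commutator G ≤ N := by
    rw [← QuotientGroup.ker_mk' N]
    letI := this.commGroup
    exact Abelianization.commutator_subset_ker _
  rw [h1, top_le_iff] at h2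
  simp [h2] at h

theorem exists_conj : ∃ t ∈ D.S, IsConj D.z t ∧ t ≠ D.z := by
  haveI : Fact (Nat.Prime 2) := ⟨Nat.prime_two⟩
  obtain ⟨g, c, h⟩ := CL.Inv.exists_commuting_conj_of_simple (G := G)
    (fun h => D.index_ne_two ⊥ (by rw [index_bot, h])) (orderOf_eq_prime (by rw [pow_two, D.zz]) D.z1)
  have h1 : IsConj D.z (g * D.z * g⁻¹) := isConj_iff.2 ⟨g, rfl⟩
  obtain ⟨d, hd, dS⟩ := exists_conj_S (D := D) (n := 1) (mem_C.2 c.symm.eq) (by rw [pow_one, pow_two, sq_conj h1])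
  exact ⟨_, dS, h1.trans (isConj_iff.2 ⟨d, rfl⟩), by
    rw [← conj_z hd, Ne, mul_left_inj, mul_right_inj, conj_z hd]; exact h⟩

variable {D}

theorem U.isConj_z {u : G} (hu : D.U u) (uS : u ∈ D.S) : IsConj D.z u := by
  by_contra h
  have hno : ∀ x, D.U x → ¬ IsConj D.z x := fun x hx e => h (e.trans (hx.isConj hu))
  obtain ⟨-, -, -, k, kS, kK, -, kk, -⟩ := hu.inS uS
  obtain ⟨t, tS, tc, t1⟩ := D.exists_conj
  obtain ⟨t, tS, tc, t1, hk⟩ := exists_t hno kS kK kk tc tS t1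
  exact not_perfect hno kS kK kk tS tc t1 hk (CL.Inv.commutator_eq_top_of_simple D.nonab)

theorem no_triple {u x : G} (hu : D.U u) (uS : u ∈ D.S) (xS : x ∈ D.S) (xx : x * x = 1) (c : Commute x u) :
    (x = 1 ∨ x = D.z) ∨ D.U x := by
  by_contra h
  refine false_of_one_class (fun y yy y1 => ?_) hu uS xS xx c (fun e => h (.inl e)) fun e => h (.inr e)
  obtain ⟨g, (e | e) | e⟩ := two_classes (D := D) D.index_ne_two yy
  · exact (y1 (conj_eq_one_iff.1 e)).elim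
  · exact (isConj_iff.2 ⟨g, e⟩).symm
  · exact ((hu.isConj_z uS).trans (hu.isConj e)).trans (isConj_iff.2 ⟨g, rfl⟩).symm

theorem cases_of_comm {x y : G} (xS : x ∈ D.S) (yS : y ∈ D.S) (xx : x * x = 1) (yy : y * y = 1) (c : Commute x y)
    (h1 : ¬ (x = 1 ∨ x = D.z)) : (y = 1 ∨ y = D.z) ∨ y = x ∨ y = x * D.z := by
  by_cases hx : D.U x
  · exact (no_triple hx xS yS yy c.symm).imp_right fun hy => hx.comm hy xS yS c
  have key : ∀ y ∈ D.S, y * y = 1 → Commute x y → (y = 1 ∨ y = D.z) ∨ D.U y → y = 1 ∨ y = D.z :=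
    fun y yS yy c h => h.resolve_right fun hy => (no_triple hy yS xS xx c).elim h1 hx
  have h2 : x * y * (x * y) = 1 := by rw [← pow_two, c.mul_pow, pow_two, pow_two, xx, yy, mul_one]
  have c2 := (Commute.refl x).mul_right c
  have fin : (x * y = 1 ∨ x * y = D.z) ∨ D.U (x * y) → (y = 1 ∨ y = D.z) ∨ y = x ∨ y = x * D.z := fun h => by
    rcases key _ (mul_mem xS yS) h2 c2 h with e | e
    · exact .inr (.inl (mul_left_cancel (e.trans xx.symm)))
    · exact .inr (.inr (by rw [← e, ← mul_assoc, xx, one_mul]))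
  obtain ⟨m, i, hm, hA⟩ := act xS
  obtain ⟨n, l, hn, hB⟩ := act yS
  have hC := hA.mul hB
  have a1 : ¬ ((D.N ∣ m - 1 ∨ D.N ∣ m + 1) ∧ i % 2 = 0) := fun e =>
    (hA.tr xS xx e.1 (Int.even_iff.2 e.2)).elim h1 hx
  by_cases a2 : (D.N ∣ n - 1 ∨ D.N ∣ n + 1) ∧ l % 2 = 0
  · exact .inl (key y yS yy c (hB.tr yS yy a2.1 (Int.even_iff.2 a2.2)))
  have b1 := hA.sq xx
  have b2 := hB.sq yy
  have b3 := hC.sq h2
  refine fin (hC.tr (mul_mem xS yS) h2 ?_ (Int.even_iff.2 ?_)) <;>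
    rcases D.hN with d | d <;> rw [d.1] at a1 a2 b1 b2 b3 <;> (try rw [d.1]) <;>
      rcases hm with rfl | rfl | rfl | rfl <;> rcases hn with rfl | rfl | rfl | rfl <;> omega

variable (D)

theorem rank : PRankLE 2 2 G := fun E hE h2 => by
  classical
  haveI : Fact (Nat.Prime 2) := ⟨Nat.prime_two⟩
  obtain ⟨g, -, hg⟩ := (syl_top (D := D)).exists_conj_le (U := E)
    (fun x => ⟨1, Subtype.ext (by simpa using h2 x x.2)⟩) le_top
  rw [← card_conj_smul g]
  have sq : ∀ x ∈ MulAut.conj g • E, x * x = 1 := fun x hx => by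
    have := h2 _ ((mem_conj_smul_iff g x E).1 hx)
    calc _ = g * (g⁻¹ * x * g) ^ 2 * g⁻¹ := by rw [pow_two]; group
      _ = 1 := by rw [this]; group
  have cm : ∀ x ∈ MulAut.conj g • E, ∀ y ∈ MulAut.conj g • E, Commute x y := fun x hx y hy => by
    have := congrArg Subtype.val (hE.1.1 ⟨_, (mem_conj_smul_iff g x E).1 hx⟩ ⟨_, (mem_conj_smul_iff g y E).1 hy⟩)
    simpa [mul_assoc] using Commute.conj this g
  generalize MulAut.conj g • E = E at hg sq cm
  obtain ⟨x, hx⟩ : ∃ x, ∀ y ∈ E, (y = 1 ∨ y = D.z) ∨ y = x ∨ y = x * D.z := by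
    by_cases h : ∀ x ∈ E, x = 1 ∨ x = D.z
    · exact ⟨1, fun y hy => .inl (h y hy)⟩
    · obtain ⟨x, h⟩ := not_forall.1 h
      obtain ⟨hx, h⟩ := Classical.not_imp.1 h
      exact ⟨x, fun y hy => cases_of_comm (hg hx) (hg hy) (sq x hx) (sq y hy) (cm x hx y hy) h⟩
  calc Nat.card E = (E : Set G).ncard := rfl
    _ ≤ (({1, D.z, x, x * D.z} : Finset G) : Set G).ncard :=
      Set.ncard_le_ncard (fun y hy => by simpa [or_assoc] using hx y hy) (Set.toFinite _)
    _ ≤ 2 ^ 2 := by rw [Set.ncard_coe_finset]; exact Finset.card_le_four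

end Qd

theorem smFus : SmFus.{u} := fun G _ _ _ D => by
  haveI : Fact (Nat.Prime 2) := ⟨Nat.prime_two⟩
  obtain ⟨P, hP⟩ := isSylowIn_top_iff.1 (Qd.syl_top (D := D))
  rcases CL.Rk2.group_cases P (CL.C2Low.sylow_ne_bot D.nonab P) D.rank (CL.C2Low.not_isolated_of_simple D.nonab) with
    ⟨ξ, -, S₀⟩ | ⟨n, -, ⟨⟨e⟩⟩ | h⟩ | h
  · obtain ⟨t, tS, tc, t1⟩ := D.exists_conj
    obtain ⟨q, qS, e⟩ := Qd.factA_S tS (Qd.sq_conj tc) (Qd.ne_conj tc t1)
    have := congrArg Subtype.val (mem_center_iff.1 (S₀.mem_center (x := ⟨t, hP ▸ tS⟩) (Subtype.ext (Qd.sq_conj tc)))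
      ⟨q, hP ▸ qS⟩)
    rw [show q * t = t * q from this, mul_inv_cancel_right, right_eq_mul] at e
    exact (D.z1 e).elim
  · have key : ∀ x : P, x.1 * x.1 = D.z → ∃ i, e x = .r i := fun x hx => by
      rcases h : e x with i | i
      · exact ⟨i, rfl⟩
      · refine (D.z1 ?_).elim
        have : e (x * x) = 1 := by rw [map_mul, h, DihedralGroup.sr_mul_self]
        rw [← hx]
        exact congrArg Subtype.val ((map_eq_one_iff _ e.injective).1 this)
    obtain ⟨i, hi⟩ := key ⟨D.j, hP.ge D.jS⟩ D.jj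
    obtain ⟨l, hl⟩ := key ⟨D.a, hP.ge Qd.aS⟩ Qd.aa
    refine (Qd.not_comm_j (D := D) Qd.aa ?_).elim
    refine congrArg Subtype.val (e.injective (a₁ := ⟨D.j, hP.ge D.jS⟩ * ⟨D.a, hP.ge Qd.aS⟩)
      (a₂ := ⟨D.a, hP.ge Qd.aS⟩ * ⟨D.j, hP.ge D.jS⟩) ?_)
    rw [map_mul, map_mul, hi, hl, DihedralGroup.r_mul_r, DihedralGroup.r_mul_r, add_comm]
  · exact ⟨P, .inl h⟩
  · exact ⟨P, .inr h⟩

end CL.HatA
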