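/-
HATA, small degrees: a 2-element normalising a quasisimple group with a unique involution and centralising a
Sylow 2-subgroup centralises the group.
-/
import Cfsg.Agent.HatA.SmDefs
import Cfsg.Agent.Inv.ZStar
import Cfsg.Agent.Loc.Quasisimple
import Cfsg.Agent.Even.Amb
import Cfsg.Agent.Grp.PGroupBasic

set_option autoImplicit false

namespace CL.HatA

open Subgroup CL.Grp CL.Even Cfsg
open scoped commutatorElement

universe u

theorem smKF_core {G : Type u} [Group G] [Finite G] {A Q : Subgroup G} [hAn : A.Normal] {s : G}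
    (hA : IsQuasisimple A) (hgen : ∀ g : G, ∃ a ∈ A, ∃ k : ℤ, g = a * s ^ k)
    (hu : ∀ x ∈ A, x * x = 1 → x ∈ 𝒞(A)) (hQ : IsSylowIn 2 Q A) (hq : ∃ q ∈ Q, q ∉ 𝒞(A)) (hs : s ∈ 𝒞(Q))
    (h2 : s * s ∈ 𝒞(A)) : s ∈ 𝒞(A) := by
  have := Fact.mk Nat.prime_two
  by_contra hn
  let π := QuotientGroup.mk' 𝒞(A)
  have hπ : ∀ x, π x = 1 ↔ x ∈ 𝒞(A) := fun x => QuotientGroup.eq_one_iff x
  have hiso : IsIsolatedInvolution (π s) := by
    refine ⟨orderOf_eq_prime (by rw [pow_two, ← map_mul]; exact (hπ _).2 h2) fun e => hn ((hπ _).1 e), fun g hg => ?_⟩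
    obtain ⟨g, rfl⟩ := QuotientGroup.mk'_surjective _ g
    obtain ⟨a, ha, k, rfl⟩ := hgen g
    set b := a * s * a⁻¹ * s⁻¹ with hb
    have hbA : b ∈ A := by
      have := mul_mem ha (hAn.conj_mem _ (inv_mem ha) s)
      simpa [hb, mul_assoc] using this
    have e1 : π (a * s ^ k) * π s * (π (a * s ^ k))⁻¹ = π b * π s := by
      rw [← map_inv, ← map_mul, ← map_mul, ← map_mul, hb]; congr 1; group
    have hc : Commute (π s) (π b) := by
      change Commute (π s) (π (a * s ^ k) * π s * (π (a * s ^ k))⁻¹) at hg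
      rw [e1] at hg
      simpa using hg.mul_right (Commute.refl (π s)).inv_right
    have hinv : s * b * s⁻¹ = b⁻¹ := by
      have h3 := conj_eq_of_mem h2 (inv_mem ha)
      calc s * b * s⁻¹ = s * a * s⁻¹ * (s * s * a⁻¹ * (s * s)⁻¹) := by rw [hb]; group
        _ = _ := by rw [h3, hb]; group
    have hbb : b * b ∈ 𝒞(A) := by
      have h3 := congrArg π hinv
      rw [map_mul, map_mul, map_inv, map_inv, hc.eq, mul_inv_cancel_right] at h3
      rw [← hπ, map_mul]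
      nth_rewrite 1 [h3]
      exact inv_mul_cancel _
    obtain ⟨e, m, ⟨t, rfl⟩, hm⟩ := Nat.exists_eq_two_pow_mul_odd (orderOf_pos b).ne'
    set β := b ^ (2 * t + 1) with hβ
    have hβ2 : β ^ 2 ^ e = 1 := by rw [hβ, ← pow_mul, mul_comm, ← hm, pow_orderOf_eq_one]
    let C : Subgroup G := A ⊓ (centralizer {π s}).comap π
    have hC : ∀ x, x ∈ C ↔ x ∈ A ∧ π x * π s = π s * π x := fun x => by
      simp only [C, mem_inf, mem_comap, mem_centralizer_singleton_iff]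
    have hQC : Q ≤ C := fun q hq => (hC q).2 ⟨hQ.le hq, by rw [← map_mul, ← map_mul, comm_of_mem hs hq]⟩
    have hβC : β ∈ C := pow_mem ((hC b).2 ⟨hbA, hc.eq.symm⟩) _
    obtain ⟨c, hc1, hc2⟩ := (hQ.of_le hQC inf_le_left).exists_conj_le (isPGroup_zpowers hβ2) (zpowers_le.2 hβC)
    have hq1 : c * β * c⁻¹ ∈ Q := hc2 (conj_mem_conj_smul c (mem_zpowers β))
    have hζ : c⁻¹ * (s * c * s⁻¹) ∈ 𝒞(A) := by
      rw [← hπ, map_mul, map_mul, map_mul, map_inv, map_inv, ← ((hC c).1 hc1).2]; group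
    have h4 : c * β * c⁻¹ * (c * β * c⁻¹) = 1 := by
      have h5 := conj_eq_of_mem hs hq1
      have h6 := conj_eq_of_mem hζ (inv_mem hβC.1)
      have h7 : s * β * s⁻¹ = β⁻¹ := by rw [hβ, ← conj_pow, hinv, inv_pow]
      nth_rewrite 1 [← h5]
      calc _ = c * (c⁻¹ * (s * c * s⁻¹) * (s * β * s⁻¹) * (c⁻¹ * (s * c * s⁻¹))⁻¹) * β * c⁻¹ := by group
        _ = 1 := by rw [h7, h6]; group
    have h5 : β ∈ 𝒞(A) := by
      have := (inferInstance : (𝒞(A)).Normal).conj_mem _ (hu _ (hQ.le hq1) h4) c⁻¹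
      simpa [mul_assoc] using this
    have h6 : b ∈ 𝒞(A) := by
      rw [hβ, pow_succ, pow_mul, pow_two] at h5
      exact (mul_mem_cancel_left (pow_mem hbb t)).1 h5
    change π (a * s ^ k) * π s * (π (a * s ^ k))⁻¹ = π s
    rw [e1, (hπ b).2 h6, one_mul]
  let M : Subgroup G := A ⊓ (oddCore (G ⧸ 𝒞(A))).comap π
  have hM : M ≤ 𝒞(A) := by
    rcases CL.Loc.IsQuasisimple.eq_or_commutator_eq_bot hA (N := M) inf_le_left le_normalizer_of_normal with e | e
    · obtain ⟨q, hq1, hq2⟩ := hq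
      obtain ⟨k, hk⟩ := isPGroup_iff_forall.1 hQ.isPGroup q hq1
      have h3 : q ∈ M := e.symm ▸ hQ.le hq1
      refine absurd ((hπ q).1 (eq_one_of_coprime_of_pow (p := 2) (k := k) ?_ (by rw [← map_pow, hk, map_one]))) hq2
      exact Nat.coprime_two_right.2 (CL.Inv.odd_orderOf_of_mem_odd CL.Inv.odd_card_oddCore h3.2)
    · rwa [commutator_comm, commutator_eq_bot_iff'] at e
  have h3 : ∀ a ∈ A, Commute (π s) (π a) := fun a ha => by
    have h4 : s * a * s⁻¹ * a⁻¹ ∈ M := ⟨A.mul_mem (hAn.conj_mem a ha s) (A.inv_mem ha), by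
      have := CL.Inv.zstar_mem_oddCore hiso (π a)
      simpa using this⟩
    have h5 := (hπ _).2 (hM h4)
    rw [map_mul, map_mul, map_mul, map_inv, map_inv] at h5
    exact commutatorElement_eq_one_iff_commute.1 h5
  have h4 : ⁅zpowers s, A⁆ ≤ 𝒞(A) := commutator_le.2 fun x hx a ha => by
    obtain ⟨k, rfl⟩ := hx
    rw [← hπ, map_commutatorElement, commutatorElement_eq_one_iff_commute]
    show Commute (π (s ^ k)) (π a)
    rw [map_zpow]
    exact (h3 a ha).zpow_left k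
  have h5 := CL.Loc.commutator_eq_bot_of_perfect (CL.Loc.IsQuasisimple.commutator_self hA)
    (X := zpowers s) (by rwa [commutator_comm, commutator_eq_bot_iff'])
  rw [commutator_comm, commutator_eq_bot_iff'] at h5
  exact hn (h5 (mem_zpowers s))

theorem smKF_sub {G : Type u} [Group G] {A H : Subgroup G} (hAH : A ≤ H) {x : H} :
    x ∈ 𝒞(A.subgroupOf H) ↔ (x : G) ∈ 𝒞(A) := by
  simp only [mem_centralizer_iff, SetLike.mem_coe, mem_subgroupOf]
  exact ⟨fun h a ha => congrArg Subtype.val (h ⟨a, hAH ha⟩ ha), fun h a ha => Subtype.ext (h a ha)⟩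

theorem smKF : SmKF.{u} := by
  intro G _ _ A Q z s hA hz z1 zz hu hQ hnc _ ⟨k, hk⟩ hsN hsC
  by_contra hs
  obtain ⟨j, h1, h2⟩ := exists_pow_notMem_pow_prime_mem (p := 2) (N := 𝒞(A)) (k := k) (hk ▸ one_mem _) hs
  set r := s ^ 2 ^ j
  have hrN : r ∈ 𝒩(A) := pow_mem hsN _
  have hrC : r ∈ 𝒞(Q) := pow_mem hsC _
  have hzC : z ∈ 𝒞(A) := mem_centralizer_iff.2 fun a ha => by
    have h3 : a * z * a⁻¹ ∈ A := mul_mem (mul_mem ha hz) (inv_mem ha)
    rcases hu _ h3 (by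
      calc a * z * a⁻¹ * (a * z * a⁻¹) = a * (z * z) * a⁻¹ := by group
        _ = 1 := by rw [zz]; group) with e | e
    · exact absurd (by simpa using e) z1
    · exact mul_inv_eq_iff_eq_mul.1 e
  let H := A ⊔ zpowers r
  have hAH : A ≤ H := le_sup_left
  have hrH : r ∈ H := mem_sup_right (mem_zpowers r)
  have hN : H ≤ 𝒩(A) := sup_le le_normalizer (zpowers_le.2 hrN)
  have := normal_subgroupOf_of_le_normalizer' hN
  refine h1 ((smKF_sub hAH (x := ⟨r, hrH⟩)).1 (smKF_core (Q := Q.subgroupOf H)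
    ((CL.Loc.isQuasisimple_subgroupOf_iff hAH).2 hA) (fun g => ?_) (fun x hx e => (smKF_sub hAH).2 ?_)
    ⟨fun x hx => hQ.le hx, hQ.isPGroup.comap_subtype, by rw [relIndex_subgroupOf hAH]; exact hQ.not_dvd⟩ ?_
    ((smKF_sub (hQ.le.trans hAH)).2 hrC) ((smKF_sub hAH).2 (by rw [pow_two] at h2; exact h2))))
  · obtain ⟨a, ha, _, ⟨i, rfl⟩, e⟩ := (mem_sup_nl (zpowers_le.2 hrN)).1 g.2
    exact ⟨⟨a, hAH ha⟩, ha, i, Subtype.ext (by simpa using e.symm)⟩
  · rcases hu x hx (congrArg Subtype.val e) with e | e <;> rw [e]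
    exacts [one_mem _, hzC]
  · by_contra hn
    push Not at hn
    refine hnc ⟨⟨fun a b => Subtype.ext ?_⟩⟩
    exact comm_of_mem ((smKF_sub hAH).1 (hn ⟨b, hAH (hQ.le b.2)⟩ b.2)) (hQ.le a.2)

end CL.HatA
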