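/-
HATA, small degrees: the local data.
-/
import Cfsg.Agent.HatA.SmDefs
import Cfsg.Agent.Grp.PGroupCyc
import Cfsg.Agent.Grp.Coprime

set_option autoImplicit false

namespace CL.HatA

open Subgroup CL.Grp
open scoped commutatorElement

universe u

namespace SmL

variable {G : Type*} [Group G] [Finite G] {Q S : Subgroup G} {z : G}

theorem mem_z (zz : z * z = 1) (z1 : z ≠ 1) {x : G} (h : x ∈ zpowers z) : x = 1 ∨ x = z := by
  have : Fact (Nat.Prime 2) := ⟨Nat.prime_two⟩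
  have o : orderOf z = 2 := orderOf_eq_prime (by rwa [sq]) z1
  obtain ⟨i, rfl⟩ := mem_powers_iff_mem_zpowers.2 h
  simp only
  rw [← pow_mod_orderOf, o]
  rcases Nat.mod_two_eq_zero_or_one i with k | k <;> simp [k]

theorem core (hS : IsPGroup 2 S) (QS : Q ≤ S) (hn : ∀ s ∈ S, ∀ q ∈ Q, s * q * s⁻¹ ∈ Q) (zQ : z ∈ Q)
    (zz : z * z = 1) (z1 : z ≠ 1) (u : ∀ x ∈ Q, x * x = 1 → x = 1 ∨ x = z)
    (hc : Nat.card Q = 8 ∨ Nat.card Q = 16) (nc : ¬ IsMulCommutative Q) :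
    (∀ q ∈ Q, q ∈ centralizer (Q : Set G) → q = 1 ∨ q = z) ∧
    ∃ (w j : G) (h : ℕ), (h = 2 ∨ h = 4) ∧ w ∈ Q ∧ j ∈ Q ∧ w ^ h = z ∧ j * j = z ∧ j * w * j⁻¹ = w⁻¹ ∧
      (∀ x ∈ Q, ∃ i : ℤ, x = w ^ i ∨ x = w ^ i * j) ∧ ∀ s ∈ S, ∃ m : ℤ, s * w * s⁻¹ = w ^ m := by
  have : Fact (Nat.Prime 2) := ⟨Nat.prime_two⟩
  obtain ⟨-, n, a, b, hd, b2, ba⟩ := (isCyclic_or_quaternion_of_forall_ea (hS.to_le QS) fun E hE c => by
    have : E ≤ zpowers (⟨z, zQ⟩ : Q) := fun x hx => by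
      rcases u x x.2 (congrArg Subtype.val ((sq x).symm.trans (hE.2 x hx))) with k | k
      · exact (Subtype.ext k : x = 1) ▸ one_mem _
      · exact (Subtype.ext k : x = ⟨z, zQ⟩) ▸ mem_zpowers _
    have := Nat.le_of_dvd Nat.card_pos (card_dvd_of_le this)
    rw [c, Nat.card_zpowers, orderOf_mk, orderOf_eq_prime (by rwa [sq]) z1] at this
    omega).resolve_left fun h => nc inferInstance
  have az : a ^ 2 ^ (n - 1) = ⟨z, zQ⟩ := by
    have o := hd.orderOf_z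
    refine Subtype.ext ((u _ (a ^ 2 ^ (n - 1)).2 ?_).resolve_left fun k => ?_)
    · have : a ^ 2 ^ (n - 1) * a ^ 2 ^ (n - 1) = 1 := by
        rw [← pow_two, ← orderOf_dvd_iff_pow_eq_one, o]
      exact congrArg Subtype.val this
    · rw [(Subtype.ext k : a ^ 2 ^ (n - 1) = 1), orderOf_one] at o
      omega
  have cen : ∀ q ∈ Q, q ∈ centralizer (Q : Set G) → q = 1 ∨ q = z := fun q hq c => by
    have : (⟨q, hq⟩ : Q) ∈ center Q := mem_center_iff.2 fun g => Subtype.ext (c g g.2)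
    rw [hd.center_eq, az] at this
    exact mem_z zz z1 (by obtain ⟨i, k⟩ := this; exact ⟨i, congrArg Subtype.val k⟩)
  have out : ∀ i : ℤ, (a ^ i * b) * (a ^ i * b) = ⟨z, zQ⟩ := fun i => by
    calc a ^ i * b * (a ^ i * b) = a ^ i * (b * a * b⁻¹) ^ i * b ^ 2 := by rw [conj_zpow, sq]; group
      _ = _ := by rw [ba, b2, az]; group
  have cd := hd.card
  have n23 : n = 2 ∨ n = 3 := by
    rcases hc with k | k <;> rw [cd] at k
    exacts [.inl (by have := Nat.pow_right_injective le_rfl (k.trans (by rfl : 8 = 2 ^ 3)); omega),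
      .inr (by have := Nat.pow_right_injective le_rfl (k.trans (by rfl : 16 = 2 ^ 4)); omega)]
  refine ⟨cen, ?_⟩
  rcases n23 with rfl | rfl
  · have sq : ∀ x ∈ Q, x ≠ 1 → x ≠ z → x * x = z := fun x hx x1 xz => by
      obtain ⟨i, k | k⟩ := hd.elt ⟨x, hx⟩
      · refine (u _ (mul_mem hx hx) ?_).resolve_left fun e => (u x hx e).elim x1 xz
        have : (⟨x, hx⟩ : Q) ^ 4 = 1 := by
          rw [k, ← zpow_natCast, ← zpow_mul, mul_comm, zpow_mul, zpow_natCast, show 4 = 2 ^ 2 from rfl, ← hd.ord,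
            pow_orderOf_eq_one, one_zpow]
        have : x ^ 4 = 1 := congrArg Subtype.val this
        simpa only [pow_succ, pow_zero, one_mul, mul_assoc] using this
      · exact congrArg Subtype.val (k ▸ out i : (⟨x, hx⟩ : Q) * ⟨x, hx⟩ = ⟨z, zQ⟩)
    have := hS.isNilpotent
    have : (Q.subgroupOf S).Normal := ⟨fun q hq s => hn s s.2 q hq⟩
    obtain ⟨w, wQ, wz, hw⟩ := exists_mem_notMem_commutator_mem (N := zpowers (⟨z, QS zQ⟩ : S))
      (M := Q.subgroupOf S) fun k => by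
        have := Nat.le_of_dvd Nat.card_pos (card_dvd_of_le k)
        rw [Nat.card_congr (subgroupOfEquivOfLe QS).toEquiv, cd, Nat.card_zpowers, orderOf_mk,
          orderOf_eq_prime (by rwa [pow_two]) z1] at this
        omega
    have w1 : (w : G) ≠ 1 := fun k => wz ((Subtype.ext k : w = 1) ▸ one_mem _)
    have w2 : (w : G) ≠ z := fun k => wz ((Subtype.ext k : w = ⟨z, QS zQ⟩) ▸ mem_zpowers _)
    have wQ : (w : G) ∈ Q := wQ
    have hw : ∀ s ∈ S, ⁅(w : G), s⁆ = 1 ∨ ⁅(w : G), s⁆ = z := fun s hs =>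
      mem_z zz z1 (by obtain ⟨i, k⟩ := hw ⟨s, hs⟩; exact ⟨i, congrArg Subtype.val k⟩)
    generalize (w : G) = w at w1 w2 wQ hw
    have ww := sq w wQ w1 w2
    have inv : ∀ s : G, ⁅w, s⁆ = z → s * w * s⁻¹ = w⁻¹ := fun s k => by
      calc s * w * s⁻¹ = (w⁻¹ * ⁅w, s⁆)⁻¹ := by rw [commutatorElement_def]; group
        _ = _ := by rw [k, ← ww]; group
    obtain ⟨j, hj, k⟩ : ∃ j ∈ Q, ¬ j * w = w * j := by
      by_contra! k
      exact (cen w wQ k).elim w1 w2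
    have o : orderOf (⟨w, wQ⟩ : Q) = 2 ^ (1 + 1) := by
      rw [orderOf_mk]
      exact orderOf_eq_prime_pow (by rwa [pow_one, pow_two, ww])
        (by rw [pow_succ, pow_mul, pow_one, pow_two, pow_two, ww, zz])
    refine ⟨w, j, 2, .inl rfl, wQ, hj, (pow_two w).trans ww, sq j hj (fun e => k (by simp [e]))
      (fun e => k (by rw [e, ← ww, mul_assoc])), inv j ((hw j (QS hj)).resolve_left fun e =>
        k (commutatorElement_eq_one_iff_mul_comm.1 e).symm), fun x hx => ?_, fun s hs => ?_⟩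
    · obtain ⟨i, e⟩ := exists_zpow_or_of_index_two (a := (⟨w, wQ⟩ : Q)) (b := ⟨j, hj⟩) (by
        have := (zpowers (⟨w, wQ⟩ : Q)).card_mul_index
        rw [Nat.card_zpowers, o, cd] at this
        omega) (by
          rintro ⟨i, e⟩
          have e : w ^ i = j := congrArg Subtype.val e
          exact k (e ▸ (Commute.refl w).zpow_left i)) ⟨x, hx⟩
      exact ⟨i, e.imp (congrArg Subtype.val) (congrArg Subtype.val)⟩
    · rcases hw s hs with e | e
      exacts [⟨1, by rw [← commutatorElement_eq_one_iff_mul_comm.1 e]; group⟩, ⟨-1, by rw [inv s e]; group⟩]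
  · refine ⟨a, b, 4, .inr rfl, a.2, b.2, congrArg Subtype.val az,
      congrArg Subtype.val (((pow_two b).symm.trans b2).trans az), congrArg Subtype.val ba, fun x hx => ?_,
      fun s hs => ?_⟩
    · obtain ⟨i, e⟩ := hd.elt ⟨x, hx⟩
      exact ⟨i, e.imp (congrArg Subtype.val) (congrArg Subtype.val)⟩
    · obtain ⟨i, e | e⟩ := hd.elt ⟨_, hn s hs a a.2⟩
      · exact ⟨i, congrArg Subtype.val e⟩
      · have h1 : (s * a * s⁻¹) * (s * a * s⁻¹) = z := congrArg Subtype.val (e ▸ out i :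
          (⟨_, hn s hs a a.2⟩ : Q) * ⟨_, hn s hs a a.2⟩ = ⟨z, zQ⟩)
        have h2 : (s * a * s⁻¹) ^ 4 = 1 := by rw [show 4 = 2 * 2 from rfl, pow_mul, pow_two, pow_two, h1, zz]
        have h3 : (a : G) ^ 4 = z := congrArg Subtype.val az
        rw [conj_pow, h3] at h2
        exact absurd (by simpa using h2) z1

end SmL

theorem smLoc_of (h1 : SmAlt.{u}) (h2 : SmKF.{u}) : SmLoc.{u} := by
  intro G _ _ A z n n5 n7 hA hq oz zA AC CN cyc
  have : Fact (Nat.Prime 2) := ⟨Nat.prime_two⟩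
  have zz : z * z = 1 := (sq z).symm.trans (oz ▸ pow_orderOf_eq_one z)
  have z1 : z ≠ 1 := fun k => by rw [k, orderOf_one] at oz; omega
  obtain ⟨S, hS⟩ := exists_isSylowIn 2 (centralizer ({z} : Set G))
  have hQ := hS.inf_of_normalized AC CN
  have hR := hS.inf_of_normalized (centralizer_le (Set.singleton_subset_iff.2 zA)) (le_normalizer_centralizer' CN)
  obtain ⟨u, fus, sy⟩ := h1 A ⟨z, zA⟩ n n5 n7 hA hq
    (mem_center_iff.2 fun g => Subtype.ext (mem_centralizer_singleton_iff.1 (AC g.2))) (by rwa [orderOf_mk])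
  have u : ∀ x ∈ A, x * x = 1 → x = 1 ∨ x = z := fun x hx k =>
    (u ⟨x, hx⟩ (Subtype.ext k)).imp (congrArg Subtype.val) (congrArg Subtype.val)
  have nm : ∀ g ∈ centralizer ({z} : Set G), ∀ x ∈ A, g * x * g⁻¹ ∈ A := fun g hg x hx =>
    (mem_normalizer_iff.1 (CN hg) x).1 hx
  have zS : z ∈ S := hS.le_of_normalized (U := zpowers z) (IsPGroup.of_card (n := 1) (by rw [Nat.card_zpowers, oz]; rfl))
    (zpowers_le.2 (mem_centralizer_singleton_iff.2 rfl))
    (fun g hg => centralizer_le_normalizer _ (by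
      rintro _ ⟨i, rfl⟩
      exact (Commute.zpow_left (mem_centralizer_singleton_iff.1 hg).symm i).eq)) (mem_zpowers z)
  have e : (hQ.toSylow : Subgroup A) ≃* ↥(S ⊓ A) := subgroupOfEquivOfLe hQ.le
  obtain ⟨c, nc⟩ := sy hQ.toSylow
  have nc : ¬ IsMulCommutative ↥(S ⊓ A) := fun k => nc ⟨⟨fun a b => e.injective (by
    rw [map_mul, map_mul, k.is_comm.comm])⟩⟩
  obtain ⟨cen, w, j, h, hh, wQ, jQ, wh, jj, jw, mQ, wi⟩ := SmL.core hS.isPGroup inf_le_left
    (fun s hs q hq => ⟨S.mul_mem (S.mul_mem hs hq.1) (S.inv_mem hs), nm s (hS.le hs) q hq.2⟩) ⟨zS, zA⟩ zz z1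
    (fun x hx => u x hx.2) (Nat.card_congr e.toEquiv ▸ c) nc
  have : IsCyclic ((S ⊓ centralizer (A : Set G)).subgroupOf (centralizer (A : Set G))) := cyc hR.toSylow
  have : IsCyclic ↥(S ⊓ centralizer (A : Set G)) :=
    isCyclic_of_surjective _ (subgroupOfEquivOfLe hR.le).surjective
  obtain ⟨r, hr⟩ := IsCyclic.exists_generator (α := ↥(S ⊓ centralizer (A : Set G)))
  refine ⟨⟨z, A, S, w, j, r, h, hh, zz, z1, wh, jj, jw, wQ.2, jQ.2, wQ.1, jQ.1, r.2.1, r.2.2, AC, nm, hS,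
    fun x a b => mQ x ⟨a, b⟩, wi, fun x a b => ?_, fun s hs a b => ?_, fun x hx y hy a b => ?_⟩⟩
  · obtain ⟨i, k⟩ := hr ⟨x, a, b⟩
    exact ⟨i, (congrArg Subtype.val k).symm⟩
  · refine h2 G A _ z s hA zA z1 zz u hQ nc cen ?_ (CN (hS.le hs)) fun x hx => ?_
    · obtain ⟨k, hk⟩ := hS.isPGroup ⟨s, hs⟩
      exact ⟨k, congrArg Subtype.val hk⟩
    · obtain ⟨i, rfl | rfl⟩ := mQ x hx
      exacts [(a.zpow_right i).symm.eq, ((a.zpow_right i).mul_right b).symm.eq]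
  · obtain ⟨c, hc⟩ := isConj_iff.1 (fus ⟨x, hx⟩ ⟨y, hy⟩ (Subtype.ext a) (Subtype.ext b))
    exact ⟨c, c.2, congrArg Subtype.val hc⟩

end CL.HatA
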